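import Mathlib
import Cfsg.Agent.H9.CSE

/-!
# Assembly: the point involutions commute modulo a normal subgroup of odd order
-/

set_option autoImplicit false
set_option linter.unusedSectionVars false
set_option linter.unusedVariables false
set_option linter.style.haveILetI false

namespace Cfsg.Agent.H9.CS

open MulAction
open Cfsg.Agent.H33 (IsSyl cj mem_cj cj_mul lt_inf_normalizer)
open Cfsg.Agent.H64.Bend
open Cfsg.Agent.H37.BE
open Cfsg.Agent.LE (clSet card_clSet)

universe u v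

/-- two distinct commuting involutions -/
def Four (G : Type*) [Group G] : Prop := ∃ s t : G, Iv s ∧ Iv t ∧ s ≠ t ∧ s * t = t * s

/-- no nontrivial normal subgroup of odd order -/
def NoOdd (G : Type*) [Group G] : Prop := ∀ N : Subgroup G, N.Normal → Odd (Nat.card N) → N = ⊥

/-- all pairs generate (case S) -/
def AllGen (G Ω : Type*) [Group G] [MulAction G Ω] : Prop :=
  ∀ a b : Ω, a ≠ b → Subgroup.closure (Ia G a ∪ Ia G b) = ⊤

/-- (S4) in case S -/
def S4Hyp : Prop := ∀ (G : Type u) [Group G] [Finite G] (Ω : Type v) [Finite Ω] [MulAction G Ω], BSet G Ω → IH G Ω →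
  NoOdd G → AllGen G Ω → Four G → S4 G Ω

/-- Theorem Y -/
def YHyp : Prop := ∀ (G : Type u) [Group G] [Finite G] (Ω : Type v) [Finite Ω] [MulAction G Ω], BSet G Ω →
  NoOdd G → AllGen G Ω → (∃ a b : Ω, a ≠ b) → Four G → ∀ p : ℕ, p.Prime → (∀ a : Ω, p ∣ Nat.card (Ia G a)) →
    ∀ a b : Ω, a ≠ b → ∀ P : Subgroup G, IsSyl p P (Da G a b) → Outer Ω P

/-- the statement proved by induction -/
def PC (G : Type*) [Group G] (Ω : Type*) [MulAction G Ω] : Prop :=
  ∃ X : Subgroup G, X.Normal ∧ Odd (Nat.card X) ∧ ∀ c : Ω, ∀ x ∈ Ia G c, ∀ y ∈ Ia G c, (x * y) * (x * y) ∈ X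

/-- characteristic subgroups of `D` are normalised by `N(D)` -/
theorem char_norm {G : Type*} [Group G] {D : Subgroup G} {C : Subgroup D} (hC : C.Characteristic) {u : G}
    (hu : u ∈ Subgroup.normalizer (D : Set G)) {x : G} (hx : x ∈ C.map D.subtype) : u * x * u⁻¹ ∈ C.map D.subtype := by
  obtain ⟨y, hy, rfl⟩ := hx
  have hu' : ∀ d : G, d ∈ D ↔ u * d * u⁻¹ ∈ D := fun d => Subgroup.mem_normalizer_iff.1 hu d
  let e : D ≃* D :=
    { toFun := fun d => ⟨u * d * u⁻¹, (hu' d).1 d.2⟩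
      invFun := fun d => ⟨u⁻¹ * d * u, by
        rw [hu']
        have : u * (u⁻¹ * (d : G) * u) * u⁻¹ = d := by group
        rw [this]; exact d.2⟩
      left_inv := fun d => Subtype.ext (by change u⁻¹ * (u * (d : G) * u⁻¹) * u = d; group)
      right_inv := fun d => Subtype.ext (by change u * (u⁻¹ * (d : G) * u) * u⁻¹ = d; group)
      map_mul' := fun d d' => Subtype.ext (by
        change u * ((d : G) * d') * u⁻¹ = (u * d * u⁻¹) * (u * d' * u⁻¹); group) }
  have h1 := Subgroup.characteristic_iff_map_eq.1 hC e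
  have h2 : e y ∈ C := by
    rw [← h1]
    exact Subgroup.mem_map_of_mem _ hy
  exact ⟨e y, h2, rfl⟩

section

variable {G : Type u} {Ω : Type v} [Group G] [MulAction G Ω]

/-- a normal odd subgroup fixes all points -/
theorem normal_odd_fix [Finite G] (h : BSet G Ω) (hfour : Four G) {N : Subgroup G} (hN : N.Normal) (hodd : Odd (Nat.card N))
    {n : G} (hn : n ∈ N) (c : Ω) : n • c = c := by
  obtain ⟨s, hs, t, ht, hst, hc⟩ := four_at h hfour c
  have hnorm : ∀ g : G, g ∈ Subgroup.normalizer (N : Set G) := fun g => by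
    rw [Subgroup.normalizer_eq_top_iff.2 hN]; trivial
  exact mem_stabilizer_iff.1 (h.fix_of_four hodd hs.1 ht.1 hc hst (hnorm s) (hnorm t) hs.2 hn)

/-- involutions lift modulo a normal odd subgroup -/
theorem lift_iv [Finite G] {N : Subgroup G} [hN : N.Normal] (hodd : Odd (Nat.card N)) {x : G}
    (hx : Iv (QuotientGroup.mk' N x)) : ∃ t : G, Iv t ∧ QuotientGroup.mk' N t = QuotientGroup.mk' N x := by
  have h1 : x ^ 2 ∈ N := by
    rw [← QuotientGroup.eq_one_iff (N := N)]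
    have := hx.1
    rw [← map_mul] at this
    rw [sq]; exact this
  obtain ⟨k, hk⟩ := hodd
  have h2 : QuotientGroup.mk' N (x ^ Nat.card N) = QuotientGroup.mk' N x := by
    rw [hk, pow_succ, pow_mul, map_mul]
    have h3 : QuotientGroup.mk' N ((x ^ 2) ^ k) = 1 := (QuotientGroup.eq_one_iff _).2 (pow_mem h1 k)
    rw [h3, one_mul]
  refine ⟨x ^ Nat.card N, ⟨?_, ?_⟩, h2⟩
  · rw [← pow_two, ← pow_mul, mul_comm, pow_mul]
    exact pow_card_of_mem h1
  · intro h3
    rw [h3, map_one] at h2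
    exact hx.2 h2.symm

/-- the action of the quotient -/
@[reducible] def quotAction (N : Subgroup G) [N.Normal] (hfix : ∀ n ∈ N, ∀ c : Ω, n • c = c) : MulAction (G ⧸ N) Ω :=
  MulAction.compHom Ω (QuotientGroup.lift N (MulAction.toPermHom G Ω) (fun n hn => Equiv.ext (fun c => hfix n hn c)))

theorem bset_quot [Finite G] (h : BSet G Ω) (N : Subgroup G) [N.Normal] (hodd : Odd (Nat.card N))
    (hfix : ∀ n ∈ N, ∀ c : Ω, n • c = c) : letI := quotAction N hfix; BSet (G ⧸ N) Ω := by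
  letI := quotAction N hfix
  have hsm : ∀ (g : G) (c : Ω), (QuotientGroup.mk' N g) • c = g • c := fun g c => rfl
  have hne : ∀ t : G, Iv t → Iv (QuotientGroup.mk' N t) := by
    intro t ht
    refine ⟨?_, ?_⟩
    · rw [← map_mul, ht.1, map_one]
    · intro h1
      exact not_iv_of_odd hodd ht ((QuotientGroup.eq_one_iff _).1 h1)
  constructor
  · intro t ht
    induction t using QuotientGroup.induction_on with | _ t
    obtain ⟨s, hs, hst⟩ := lift_iv hodd (x := t) ht
    obtain ⟨a, ha⟩ := h.fix s hs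
    refine ⟨a, ?_⟩
    change (QuotientGroup.mk' N t) • a = a
    rw [← hst, hsm, ha]
  · intro t ht a b ha hb
    induction t using QuotientGroup.induction_on with | _ t
    obtain ⟨s, hs, hst⟩ := lift_iv hodd (x := t) ht
    change (QuotientGroup.mk' N t) • a = a at ha
    change (QuotientGroup.mk' N t) • b = b at hb
    rw [← hst, hsm] at ha hb
    exact h.uniq s hs a b ha hb
  · intro a
    obtain ⟨t, ht, hta⟩ := h.ev a
    exact ⟨QuotientGroup.mk' N t, hne t ht, by rw [hsm, hta]⟩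

theorem four_quot [Finite G] (hfour : Four G) (N : Subgroup G) [N.Normal] (hodd : Odd (Nat.card N)) : Four (G ⧸ N) := by
  obtain ⟨s, t, hs, ht, hst, hc⟩ := hfour
  have hne : ∀ t : G, Iv t → Iv (QuotientGroup.mk' N t) := by
    intro t ht
    refine ⟨?_, ?_⟩
    · rw [← map_mul, ht.1, map_one]
    · intro h1
      exact not_iv_of_odd hodd ht ((QuotientGroup.eq_one_iff _).1 h1)
  refine ⟨QuotientGroup.mk' N s, QuotientGroup.mk' N t, hne s hs, hne t ht, ?_, ?_⟩
  · intro h1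
    have h2 : s⁻¹ * t ∈ N := QuotientGroup.eq.1 h1
    have h3 : Iv (s⁻¹ * t) := by
      rw [hs.inv]
      refine ⟨?_, ?_⟩
      · calc s * t * (s * t) = s * (t * s) * t := by group
          _ = (s * s) * (t * t) := by rw [← hc]; group
          _ = 1 := by rw [hs.1, ht.1, one_mul]
      · intro h4
        apply hst
        have := eq_inv_of_mul_eq_one_left h4
        rw [this, ht.inv]
    exact not_iv_of_odd hodd h3 h2
  · rw [← map_mul, ← map_mul, hc]

theorem PC_of_quot [Finite G] (N : Subgroup G) [N.Normal] (hodd : Odd (Nat.card N))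
    (hfix : ∀ n ∈ N, ∀ c : Ω, n • c = c) (hPC : letI := quotAction N hfix; PC (G ⧸ N) Ω) : PC G Ω := by
  letI := quotAction N hfix
  obtain ⟨X, hX, hXodd, hX2⟩ := hPC
  have hsm : ∀ (g : G) (c : Ω), (QuotientGroup.mk' N g) • c = g • c := fun g c => rfl
  refine ⟨X.comap (QuotientGroup.mk' N), inferInstance, ?_, ?_⟩
  · apply odd_of_no_iv
    intro t ht hti
    have h1 : QuotientGroup.mk' N t ∈ X := ht
    have h2 : Iv (QuotientGroup.mk' N t) := by
      refine ⟨?_, ?_⟩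
      · rw [← map_mul, hti.1, map_one]
      · intro h1
        exact not_iv_of_odd hodd hti ((QuotientGroup.eq_one_iff _).1 h1)
    exact not_iv_of_odd hXodd h2 h1
  · intro c x hx y hy
    have key : ∀ t ∈ Ia G c, QuotientGroup.mk' N t ∈ Ia (G ⧸ N) c := by
      intro t ht
      refine ⟨⟨?_, ?_⟩, ?_⟩
      · rw [← map_mul, ht.1.1, map_one]
      · intro h1
        exact not_iv_of_odd hodd ht.1 ((QuotientGroup.eq_one_iff _).1 h1)
      · rw [hsm, ht.2]
    have h1 := hX2 c _ (key x hx) _ (key y hy)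
    rw [← map_mul, ← map_mul] at h1
    exact h1

/-- the induction hypothesis in the form used above -/
theorem ih_of_PC [Finite G] [Finite Ω] (h : BSet G Ω)
    (hPC : ∀ M : Subgroup G, M ≠ ⊤ → BSet M (Psi M Ω) → (∃ a b : Psi M Ω, a ≠ b) → Four M → PC M (Psi M Ω)) : IH G Ω := by
  intro M hM hf hst
  have hfour : Four M := by
    obtain ⟨s, hs, t, ht, hsi, hti, hne, hc⟩ := hf
    exact ⟨⟨s, hs⟩, ⟨t, ht⟩, iv_coe.2 hsi, iv_coe.2 hti, fun h1 => hne (congrArg Subtype.val h1), Subtype.ext hc⟩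
  have hpts : ∃ a b : Psi M Ω, a ≠ b := by
    obtain ⟨s, hs, t, ht, hsi, hti, hne, hc⟩ := hf
    obtain ⟨c, hsc⟩ := h.fix s hsi
    have h1 := hst c
    rw [SetLike.le_def] at h1
    push Not at h1
    obtain ⟨m, hm, hmc⟩ := h1
    rw [mem_stabilizer_iff] at hmc
    refine ⟨⟨m • c, m * s * m⁻¹, mul_mem (mul_mem hm hs) (inv_mem hm), hsi.conj m, ?_⟩, ⟨c, s, hs, hsi, hsc⟩, ?_⟩
    · rw [mul_smul, mul_smul, inv_smul_smul, hsc]
    · intro h2
      exact hmc (congrArg Subtype.val h2)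
  obtain ⟨X, hX, hXodd, hX2⟩ := hPC M hM (bset_psi h M) hpts hfour
  refine ⟨X.map M.subtype, Subgroup.map_subtype_le _, ?_, ?_, ?_⟩
  · intro g hg
    apply Cfsg.Agent.H33.mem_norm_of_le
    rw [Cfsg.Agent.H33.cj_le_iff]
    rintro _ ⟨v, hv, rfl⟩
    exact ⟨⟨g, hg⟩ * v * ⟨g, hg⟩⁻¹, hX.conj_mem v hv ⟨g, hg⟩, rfl⟩
  · rw [Subgroup.card_map_of_injective M.subtype_injective]
    exact hXodd
  · intro c x hx y hy hxc hyc
    have hc : ∃ t ∈ M, Iv t ∧ t • c = c := ⟨x, hx, hxc.1, hxc.2⟩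
    exact ⟨_, hX2 ⟨c, hc⟩ ⟨x, hx⟩ (mem_Ia_psi.2 hxc) ⟨y, hy⟩ (mem_Ia_psi.2 hyc), rfl⟩

/-- faithfulness -/
theorem faithful_of_noOdd [Finite G] (h : BSet G Ω) (hO : NoOdd G) (hpts : ∃ a b : Ω, a ≠ b) :
    ∀ g : G, (∀ w : Ω, g • w = w) → g = 1 := by
  intro g hg
  obtain ⟨a, b, hab⟩ := hpts
  have h1 := hO (MulAction.toPermHom G Ω).ker inferInstance (by
    apply odd_of_no_iv
    intro t ht hti
    have h1 : ∀ c : Ω, t • c = c := fun c => congrArg (fun f : Equiv.Perm Ω => f c) ht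
    exact hab (h.uniq t hti a b (h1 a) (h1 b)))
  have h2 : g ∈ (MulAction.toPermHom G Ω).ker := by
    rw [MonoidHom.mem_ker]
    exact Equiv.ext hg
  rw [h1] at h2
  exact Subgroup.mem_bot.1 h2

/-- type L pairs -/
theorem comm_of_typeL [Finite G] [Finite Ω] (hFT : OddSolv.{u}) (h : BSet G Ω) (hIH : IH G Ω) (hO : NoOdd G)
    (hfour : Four G) {a b : Ω} (hab : a ≠ b) (hgen : Subgroup.closure (Ia G a ∪ Ia G b) ≠ ⊤) :
    ∀ c : Ω, ∀ x ∈ Ia G c, ∀ y ∈ Ia G c, x * y = y * x := by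
  classical
  set M := Subgroup.closure (Ia G a ∪ Ia G b) with hM
  have hIaM : Ia G a ⊆ M := fun t ht => Subgroup.subset_closure (Or.inl ht)
  have hIbM : Ia G b ⊆ M := fun t ht => Subgroup.subset_closure (Or.inr ht)
  obtain ⟨s₀, hs₀, t₀, ht₀, hst₀, hc₀⟩ := four_at h hfour a
  have hfM : FourIn M := ⟨s₀, hIaM hs₀, t₀, hIaM ht₀, hs₀.1, ht₀.1, hst₀, hc₀⟩
  have hnst : ∀ c : Ω, ¬ M ≤ stabilizer G c := by
    intro c hc
    obtain ⟨z, hz, hza⟩ := h.ev a
    obtain ⟨t, ht, htb⟩ := h.ev b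
    apply hab
    rw [h.uniq z hz a c hza (mem_stabilizer_iff.1 (hc (hIaM ⟨hz, hza⟩))),
      h.uniq t ht b c htb (mem_stabilizer_iff.1 (hc (hIbM ⟨ht, htb⟩)))]
  obtain ⟨X₀, hX₀M, hX₀n, hX₀odd, hX₀⟩ := hIH M hgen hfM hnst
  -- `E = <I(a)>`
  set E := Subgroup.closure (Ia G a) with hE
  have hEM : E ≤ M := by rw [hE, Subgroup.closure_le]; exact hIaM
  have hEa : E ≤ stabilizer G a := by
    rw [hE, Subgroup.closure_le]
    intro t ht
    exact mem_stabilizer_iff.2 ht.2
  have hEn : ∀ g ∈ stabilizer G a, g ∈ Subgroup.normalizer (E : Set G) := by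
    intro g hg
    apply Cfsg.Agent.H33.mem_norm_of_le
    have hga : g • a = a := mem_stabilizer_iff.1 hg
    have h1 : cj g E = Subgroup.closure ((MulAut.conj g).toMonoidHom '' Ia G a) := by
      rw [hE]; exact MonoidHom.map_closure _ _
    rw [h1, Subgroup.closure_le]
    rintro _ ⟨t, ht, rfl⟩
    apply Subgroup.subset_closure
    refine ⟨ht.1.conj g, ?_⟩
    change (g * t * g⁻¹) • a = a
    rw [mul_smul, mul_smul, inv_smul_eq_iff.2 hga.symm, ht.2, hga]
  set X := (Cfsg.pPrimeCore 2 E).map E.subtype with hX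
  have hXE : X ≤ E := Subgroup.map_subtype_le _
  have hXodd : Odd (Nat.card X) := by
    rw [hX, Subgroup.card_map_of_injective E.subtype_injective]
    exact Nat.coprime_two_right.1 (Cfsg.Agent.Solv.pPrimeCore_card_coprime 2)
  have hle : E ⊓ X₀ ≤ X := by
    have h1 : ((E ⊓ X₀).subgroupOf E) ≤ Cfsg.pPrimeCore 2 E := by
      apply Cfsg.Agent.Solv.le_pPrimeCore
      · constructor
        intro x hx g
        rw [Subgroup.mem_subgroupOf] at hx ⊢
        refine Subgroup.mem_inf.2 ⟨E.mul_mem (E.mul_mem g.2 x.2) (E.inv_mem g.2), ?_⟩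
        exact (Subgroup.mem_normalizer_iff.1 (hX₀n g (hEM g.2)) _).1 hx.2
      · rw [Nat.coprime_two_right]
        rw [Nat.card_congr (Subgroup.subgroupOfEquivOfLe inf_le_left).toEquiv]
        exact hX₀odd.of_dvd_nat (Subgroup.card_dvd_of_le inf_le_right)
    intro x hx
    exact ⟨⟨x, hx.1⟩, h1 hx, rfl⟩
  have hXC : XC G a X :=
    { nor := fun g hg x hx => char_norm inferInstance (hEn g hg) hx
      odd := hXodd
      two := by
        intro s hs t ht
        refine ⟨1, hle ⟨pow_mem (mul_mem (Subgroup.subset_closure hs) (Subgroup.subset_closure ht)) _, ?_⟩⟩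
        rw [pow_one, sq]
        exact hX₀ a s (hIaM hs) t (hIaM ht) hs ht }
  have hXa : X ≤ stabilizer G a := hXE.trans hEa
  have hne : s₀ * t₀ ∉ X := by
    intro h1
    refine not_iv_of_odd hXodd ⟨?_, ?_⟩ h1
    · calc s₀ * t₀ * (s₀ * t₀) = s₀ * (t₀ * s₀) * t₀ := by group
        _ = (s₀ * s₀) * (t₀ * t₀) := by rw [← hc₀]; group
        _ = 1 := by rw [hs₀.1.1, ht₀.1.1, one_mul]
    · intro h4
      apply hst₀
      have := eq_inv_of_mul_eq_one_left h4
      rw [this, ht₀.1.inv]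
  have h2 : TwoTr G Ω := fun e e' f f' he hf => two_transitive_of_core h hXC hXa hs₀ ht₀ hne he hf
  have hfaith := faithful_of_noOdd h hO ⟨a, b, hab⟩
  have hcomm : ∀ x ∈ Ia G a, ∀ y ∈ Ia G a, x * y = y * x := by
    intro x hx y hy
    obtain ⟨k, hk⟩ := two_closed_of_core h h2 hfaith hab.symm hXC hXa (hFT X hXodd) hs₀ ht₀ hne hx hy
    have h3 : (x * y) * (x * y) ∈ X₀ := hX₀ a x (hIaM hx) y (hIaM hy) hx hy
    have h4 : orderOf ((x * y) * (x * y)) ∣ 2 ^ k := by
      apply orderOf_dvd_of_pow_eq_one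
      rw [← sq, ← pow_mul, mul_comm, pow_mul, hk, one_pow]
    have h5 : orderOf ((x * y) * (x * y)) ∣ Nat.card X₀ := Subgroup.orderOf_dvd_natCard _ h3
    have h6 : orderOf ((x * y) * (x * y)) = 1 := by
      have h7 := hX₀odd.of_dvd_nat h5
      have h8 : Nat.Coprime (orderOf ((x * y) * (x * y))) (2 ^ k) := (Nat.coprime_two_right.2 h7).pow_right k
      exact Nat.Coprime.eq_one_of_dvd h8 h4
    rw [orderOf_eq_one_iff] at h6
    calc x * y = (x * y) * (x * y) * (y⁻¹ * x⁻¹) := by group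
      _ = y * x := by rw [h6, hx.1.inv, hy.1.inv, one_mul]
  intro c x hx y hy
  obtain ⟨g, hg⟩ := h.trans c a
  have key : ∀ v ∈ Ia G c, g * v * g⁻¹ ∈ Ia G a := by
    intro v hv
    refine ⟨hv.1.conj g, ?_⟩
    rw [mul_smul, mul_smul, inv_smul_eq_iff.2 hg.symm, hv.2, hg]
  have h3 := hcomm _ (key x hx) _ (key y hy)
  calc x * y = g⁻¹ * ((g * x * g⁻¹) * (g * y * g⁻¹)) * g := by group
    _ = g⁻¹ * ((g * y * g⁻¹) * (g * x * g⁻¹)) * g := by rw [h3]
    _ = y * x := by group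

/-- the case `O(G) = 1` -/
theorem comm_noOdd [Finite G] [Finite Ω] (hFT : OddSolv.{u}) (hS4 : S4Hyp.{u, v}) (hY : YHyp.{u, v}) (h : BSet G Ω)
    (hIH : IH G Ω) (hO : NoOdd G) (hpts : ∃ a b : Ω, a ≠ b) (hfour : Four G) :
    ∀ c : Ω, ∀ x ∈ Ia G c, ∀ y ∈ Ia G c, x * y = y * x := by
  classical
  by_cases hgen : AllGen G Ω
  · obtain ⟨a, b, hab⟩ := hpts
    have hm : 1 < Nat.card (Ia G a) := by
      obtain ⟨s, hs, t, ht, hst, _⟩ := four_at h hfour a
      rw [Finite.one_lt_card_iff_nontrivial]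
      exact ⟨⟨s, hs⟩, ⟨t, ht⟩, fun h1 => hst (congrArg Subtype.val h1)⟩
    have hout : ∀ p : ℕ, p.Prime → p ∣ Nat.card (Ia G a) → ∀ a b : Ω, a ≠ b → ∀ P : Subgroup G,
        IsSyl p P (Da G a b) → Outer Ω P := by
      intro p hp hpa
      exact hY G Ω h hO hgen ⟨a, b, hab⟩ hfour p hp (fun c => by rw [h.card_Ia_eq c a]; exact hpa)
    obtain ⟨p, hp, hpd⟩ := Nat.exists_prime_and_dvd hm.ne'
    haveI : Fact p.Prime := ⟨hp⟩
    have h2 : TwoTr G Ω := fun e e' f f' he hf => two_transitive_of_outer h hpd (hout p hp hpd) he hf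
    have hcomm : ∀ x ∈ Ia G a, ∀ y ∈ Ia G a, x * y = y * x := fun x hx y hy =>
      caseS_main hFT h h2 (hS4 G Ω h hIH hO hgen hfour) hIH hO hab (hgen a b hab) hout hfour hx hy
    intro c x hx y hy
    obtain ⟨g, hg⟩ := h.trans c a
    have key : ∀ v ∈ Ia G c, g * v * g⁻¹ ∈ Ia G a := by
      intro v hv
      refine ⟨hv.1.conj g, ?_⟩
      rw [mul_smul, mul_smul, inv_smul_eq_iff.2 hg.symm, hv.2, hg]
    have h3 := hcomm _ (key x hx) _ (key y hy)
    calc x * y = g⁻¹ * ((g * x * g⁻¹) * (g * y * g⁻¹)) * g := by group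
      _ = g⁻¹ * ((g * y * g⁻¹) * (g * x * g⁻¹)) * g := by rw [h3]
      _ = y * x := by group
  · unfold AllGen at hgen
    push Not at hgen
    obtain ⟨a, b, hab, hne⟩ := hgen
    exact comm_of_typeL hFT h hIH hO hfour hab hne

end

/-- **point involutions commute modulo a normal subgroup of odd order** -/
theorem pointComm (hFT : OddSolv.{u}) (hS4 : S4Hyp.{u, v}) (hY : YHyp.{u, v}) :
    ∀ (n : ℕ) (G : Type u) [Group G] [Finite G] (Ω : Type v) [Finite Ω] [MulAction G Ω], Nat.card G = n → BSet G Ω →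
      (∃ a b : Ω, a ≠ b) → Four G → PC G Ω := by
  intro n
  induction n using Nat.strong_induction_on with | _ n ih
  intro G _ _ Ω _ _ hn h hpts hfour
  classical
  by_cases hO : NoOdd G
  · have hIH : IH G Ω := by
      apply ih_of_PC h
      intro M hM hB hp hf
      refine ih (Nat.card M) ?_ M (Psi M Ω) rfl hB hp hf
      rw [← hn]
      have h1 : Nat.card M ≤ Nat.card G := Nat.card_le_card_of_injective _ Subtype.val_injective
      refine lt_of_le_of_ne h1 ?_
      intro h2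
      exact hM (Subgroup.eq_top_of_card_eq _ h2)
    have hcomm := comm_noOdd hFT hS4 hY h hIH hO hpts hfour
    refine ⟨⊥, inferInstance, by simp, ?_⟩
    intro c x hx y hy
    rw [Subgroup.mem_bot]
    calc x * y * (x * y) = x * (y * x) * y := by group
      _ = (x * x) * (y * y) := by rw [← hcomm c x hx y hy]; group
      _ = 1 := by rw [hx.1.1, hy.1.1, one_mul]
  · unfold NoOdd at hO
    push Not at hO
    obtain ⟨N, hN, hodd, hne⟩ := hO
    have hfix : ∀ n ∈ N, ∀ c : Ω, n • c = c := fun n hn c => normal_odd_fix h hfour hN hodd hn c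
    apply PC_of_quot N hodd hfix
    letI := quotAction N hfix
    refine ih (Nat.card (G ⧸ N)) ?_ (G ⧸ N) Ω rfl (bset_quot h N hodd hfix) hpts (four_quot hfour N hodd)
    rw [← hn]
    have h1 := Subgroup.card_eq_card_quotient_mul_card_subgroup N
    have h2 : 1 < Nat.card N := by
      rw [Subgroup.one_lt_card_iff_ne_bot]; exact hne
    have h3 : 0 < Nat.card (G ⧸ N) := Nat.card_pos
    rw [h1]
    exact lt_mul_of_one_lt_right h3 h2

/-- the final form with `O(G) = 1` -/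
theorem pointComm' (hFT : OddSolv.{u}) (hS4 : S4Hyp.{u, v}) (hY : YHyp.{u, v}) {G : Type u} [Group G] [Finite G]
    {Ω : Type v} [Finite Ω] [MulAction G Ω] (h : BSet G Ω) (hO : NoOdd G) (hpts : ∃ a b : Ω, a ≠ b) (hfour : Four G)
    {c : Ω} {x y : G} (hx : x ∈ Ia G c) (hy : y ∈ Ia G c) : x * y = y * x := by
  obtain ⟨X, hX, hXodd, hX2⟩ := pointComm hFT hS4 hY (Nat.card G) G Ω rfl h hpts hfour
  have h1 := hX2 c x hx y hy
  rw [hO X hX hXodd, Subgroup.mem_bot] at h1
  calc x * y = (x * y) * (x * y) * (y⁻¹ * x⁻¹) := by group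
    _ = y * x := by rw [h1, hx.1.inv, hy.1.inv, one_mul]

end Cfsg.Agent.H9.CS
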