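import Cfsg.Agent.H25.QuadCore
import Cfsg.Agent.H91.SolvPCore
import Cfsg.Agent.Cop.Basic
import Cfsg.Agent.Solv.Frattini
import Cfsg.Agent.H63.PG

/-!
Quadratic action modulo the Frattini subgroup in groups of odd order.
-/

set_option autoImplicit false

open Cfsg

namespace Cfsg.Agent.H9

/-- In a group `X` of odd order with `C_X(O_p(X)) ≤ O_p(X)`, an element acting quadratically on
`O_p(X)` modulo its Frattini subgroup lies in `O_p(X)`. -/
theorem mem_pCore_of_quad_frattini {p : ℕ} [Fact p.Prime] (hp2 : p ≠ 2) {X : Type*} [Group X]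
    [Finite X] (hodd : Odd (Nat.card X))
    (hC : Subgroup.centralizer (pCore p X : Set X) ≤ pCore p X) (x : X)
    (hx : ∀ u ∈ pCore p X, x * (x * u * x⁻¹ * u⁻¹) * x⁻¹ * (x * u * x⁻¹ * u⁻¹)⁻¹ ∈
      (frattini (pCore p X)).map (pCore p X).subtype) : x ∈ pCore p X := by
  set R := pCore p X with hR
  have hRp : IsPGroup p R := Solv.pCore_isPGroup p
  set Φ : Subgroup X := (frattini R).map R.subtype with hΦ
  have hΦR : Φ ≤ R := Subgroup.map_subtype_le _
  have hΦn : Φ.Normal := by
    have h1 := H49.normalizer_le_normalizer_map_of_char R (frattini R)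
    have h2 : Subgroup.normalizer (R : Set X) = ⊤ := Subgroup.normalizer_eq_top_iff.2 inferInstance
    rw [h2, top_le_iff, Subgroup.normalizer_eq_top_iff] at h1
    exact h1
  let π := QuotientGroup.mk' Φ
  have hπ : Function.Surjective π := QuotientGroup.mk'_surjective Φ
  let P : Subgroup (X ⧸ Φ) := R.map π
  have hPn : P.Normal := Subgroup.Normal.map inferInstance π hπ
  have hPp : IsPGroup p P := hRp.map π
  let C : Subgroup (X ⧸ Φ) := Subgroup.centralizer (P : Set (X ⧸ Φ))
  have hCn : C.Normal := inferInstance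
  have hoddK : Odd (Nat.card (X ⧸ Φ)) := by
    have h1 : Nat.card X = Nat.card (X ⧸ Φ) * Nat.card Φ := Subgroup.card_eq_card_quotient_mul_card_subgroup Φ
    rw [h1] at hodd
    exact (Nat.odd_mul.1 hodd).1
  have key := H25.quad_mem_pCore hp2 hoddK P hPp C (by
    intro k hk
    rw [Subgroup.mem_centralizer_iff]
    intro u hu
    exact (hk u hu).symm) (π x) (by
    rintro _ ⟨u, hu, rfl⟩
    have h1 := hx u hu
    rw [← QuotientGroup.eq_one_iff] at h1
    have h2 : π (x * (x * u * x⁻¹ * u⁻¹) * x⁻¹ * (x * u * x⁻¹ * u⁻¹)⁻¹) = 1 := h1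
    rw [map_mul, map_mul, map_mul, map_inv, map_inv, mul_inv_eq_one, mul_inv_eq_iff_eq_mul] at h2
    simp only [map_mul, map_inv] at h2 ⊢
    exact h2)
  -- pull back
  let f : X →* (X ⧸ Φ) ⧸ C := (QuotientGroup.mk' C).comp π
  have hf : Function.Surjective f := (QuotientGroup.mk'_surjective C).comp hπ
  let Y : Subgroup X := (pCore p ((X ⧸ Φ) ⧸ C)).comap f
  have hxY : x ∈ Y := key
  have hYn : Y.Normal := inferInstance
  have hker : ∀ c ∈ f.ker, (orderOf c).Coprime p → c = 1 := by
    intro c hc hcp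
    have hc1 : π c ∈ C := by
      rw [MonoidHom.mem_ker] at hc
      exact (QuotientGroup.eq_one_iff _).1 hc
    have h1 : Subgroup.zpowers c ≤ Subgroup.centralizer (R : Set X) := by
      apply Cop.le_centralizer_of_frattini
      · exact le_trans le_top (Subgroup.normalizer_eq_top_iff.2 inferInstance).ge
      · rw [Nat.card_zpowers]
        obtain ⟨n, hn⟩ := IsPGroup.iff_card.1 (hRp.to_subgroup (frattini R))
        rw [hn]
        exact Nat.Coprime.pow_right _ hcp
      · rintro a ⟨m, rfl⟩ k hk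
        have h2 : π (c ^ m) ∈ C := by rw [map_zpow]; exact C.zpow_mem hc1 m
        have h3 := (Subgroup.mem_centralizer_iff.1 h2) (π k) ⟨k, hk, rfl⟩
        change c ^ m * k * (c ^ m)⁻¹ * k⁻¹ ∈ Φ
        rw [← QuotientGroup.eq_one_iff]
        change π _ = 1
        rw [map_mul, map_mul, map_mul, ← h3, map_inv, map_inv]
        group
    have h2 : c ∈ R := hC (h1 (Subgroup.mem_zpowers c))
    have h3 : orderOf c ∣ Nat.card R := by
      rw [← Subgroup.orderOf_mk c h2]; exact orderOf_dvd_natCard _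
    obtain ⟨n, hn⟩ := IsPGroup.iff_card.1 hRp
    rw [hn] at h3
    exact orderOf_eq_one_iff.1 (Nat.eq_one_of_dvd_coprimes (Nat.Coprime.pow_right n hcp) dvd_rfl h3)
  have hYp : IsPGroup p Y := by
    rintro ⟨y, hy⟩
    have hy1 : f y ∈ pCore p ((X ⧸ Φ) ⧸ C) := hy
    obtain ⟨a, ha⟩ := Solv.pCore_isPGroup (G := (X ⧸ Φ) ⧸ C) p ⟨f y, hy1⟩
    have ha' : f (y ^ p ^ a) = 1 := by
      rw [map_pow]; exact congrArg Subtype.val ha
    -- y ^ (p^a) in the kernel; remove the p-part
    set z := y ^ p ^ a with hz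
    have hzk : z ∈ f.ker := ha'
    have hp : p.Prime := Fact.out
    obtain ⟨m, hm, hpm⟩ : ∃ m, orderOf z = p ^ (orderOf z).factorization p * m ∧ m.Coprime p :=
      ⟨orderOf z / p ^ (orderOf z).factorization p, (Nat.ordProj_mul_ordCompl_eq_self _ _).symm,
        (Nat.coprime_ordCompl hp (orderOf_pos z).ne').symm⟩
    have h1 : orderOf (z ^ p ^ (orderOf z).factorization p) = m := by
      rw [orderOf_pow]
      set b := (orderOf z).factorization p with hb
      have h2 : Nat.gcd (orderOf z) (p ^ b) = p ^ b := by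
        rw [hm]; exact Nat.gcd_eq_right (dvd_mul_right _ _)
      rw [h2, hm, Nat.mul_div_cancel_left _ (pow_pos hp.pos _)]
    have h3 := hker _ (f.ker.pow_mem hzk (p ^ (orderOf z).factorization p)) (by rw [h1]; exact hpm)
    refine ⟨a + (orderOf z).factorization p, ?_⟩
    apply Subtype.ext
    change y ^ p ^ (a + (orderOf z).factorization p) = 1
    rw [pow_add, pow_mul]
    exact h3
  exact (Solv.le_pCore hYn hYp) hxY

end Cfsg.Agent.H9
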