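import Cfsg.Agent.H36.PQuot
import Cfsg.Agent.FStar.AxB

/-!
`O_{p'}` of `p`-local subgroups of `p`-constrained groups.
-/

set_option autoImplicit false

open Cfsg

namespace Cfsg.Agent.H9

variable {G : Type*} [Group G] [Finite G] {p : ℕ} [Fact p.Prime]

theorem pPrimeCore_normalizer_eq (hc : Subgroup.centralizer (Cfsg.pCore p (G ⧸ Cfsg.pPrimeCore p G) : Set (G ⧸ Cfsg.pPrimeCore p G)) ≤ Cfsg.pCore p (G ⧸ Cfsg.pPrimeCore p G)) (P : Subgroup G) (hP : IsPGroup p P) :
    (Cfsg.pPrimeCore p ↥(Subgroup.normalizer (P : Set G))).map (Subgroup.normalizer (P : Set G)).subtype = Cfsg.pPrimeCore p G ⊓ Subgroup.normalizer (P : Set G) := by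
  set N := Cfsg.pPrimeCore p G with hN
  have hNc : (Nat.card N).Coprime p := Solv.pPrimeCore_card_coprime p
  apply le_antisymm
  · refine le_inf ?_ (Subgroup.map_subtype_le _)
    set M := Subgroup.normalizer (P : Set G) with hM
    let π := QuotientGroup.mk' N
    have hπ : Function.Surjective π := QuotientGroup.mk'_surjective N
    have hmap := H36.PQuot.map_normalizer hNc hP
    set Pb : Subgroup (G ⧸ N) := P.map π with hPb
    set Mb : Subgroup (G ⧸ N) := Subgroup.normalizer (Pb : Set (G ⧸ N)) with hMb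
    let f : M →* Mb := (π.comp M.subtype).codRestrict Mb (by
      intro x
      have h1 : π x ∈ M.map π := ⟨x, x.2, rfl⟩
      rw [hmap] at h1
      exact h1)
    have hf : Function.Surjective f := by
      rintro ⟨y, hy⟩
      have h1 : y ∈ M.map π := by rw [hmap]; exact hy
      obtain ⟨x, hx, rfl⟩ := h1
      exact ⟨⟨x, hx⟩, rfl⟩
    have h2 := Solv.map_pPrimeCore_le p f hf
    have h3 := FStar.pPrimeCore_normalizer_le (G := G ⧸ N) (p := p) (P := Pb) (hP.map π)
    have h4 : (Cfsg.pPrimeCore p Mb).map Mb.subtype = ⊥ := by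
      have h5 : (Cfsg.pPrimeCore p Mb).map Mb.subtype ≤ Cfsg.pCore p (G ⧸ N) := h3.trans hc
      have h6 : ((Cfsg.pPrimeCore p Mb).map Mb.subtype) ⊓ Cfsg.pCore p (G ⧸ N) = ⊥ := by
        apply Disjoint.eq_bot
        apply Subgroup.disjoint_of_coprime_natCard
        obtain ⟨n, hn⟩ := IsPGroup.iff_card.1 (Solv.pCore_isPGroup (G := G ⧸ N) p)
        rw [hn, Subgroup.card_map_of_injective Mb.subtype_injective]
        exact (Solv.pPrimeCore_card_coprime (G := Mb) p).pow_right n
      rw [eq_bot_iff, ← h6]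
      exact le_inf le_rfl h5
    rintro _ ⟨x, hx, rfl⟩
    have h5 : f x ∈ Cfsg.pPrimeCore p Mb := h2 ⟨x, hx, rfl⟩
    have h6 : (f x : G ⧸ N) ∈ (Cfsg.pPrimeCore p Mb).map Mb.subtype := ⟨_, h5, rfl⟩
    rw [h4, Subgroup.mem_bot] at h6
    exact (QuotientGroup.eq_one_iff _).1 h6
  · intro x hx
    refine ⟨⟨x, hx.2⟩, ?_, rfl⟩
    have h1 : (N.subgroupOf (Subgroup.normalizer (P : Set G))) ≤ Cfsg.pPrimeCore p _ := by
      apply Solv.le_pPrimeCore inferInstance
      exact Nat.Coprime.coprime_dvd_left (Subgroup.card_comap_dvd_of_injective _ _ (Subgroup.subtype_injective _)) hNc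
    exact h1 (Subgroup.mem_subgroupOf.2 hx.1)

end Cfsg.Agent.H9
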