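import Cfsg.Agent.H9.OddQuad
import Cfsg.Agent.H9.PPrimeCore
import Cfsg.Agent.BG.Coprime
import Cfsg.Agent.SigF.Trans
import Cfsg.Agent.H23.PGroupNormal

/-!
Thompson transitivity theorem for groups of odd order with solvable `p`-local subgroups.
-/

set_option autoImplicit false

open Cfsg
open scoped commutatorElement

namespace Cfsg.Agent.H9

section Rel

variable {G : Type*} [Group G] [Finite G] {p : ℕ} [Fact p.Prime]

/-- relative version of `odd_quadratic_pair_centralizes`, modulo a subgroup `Z`. -/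
theorem odd_quadratic_pair_rel (hp2 : p ≠ 2) (hodd : Odd (Nat.card G)) (C Z : Subgroup G)
    (hC : IsPGroup p C) (hCZ : C ≤ Subgroup.normalizer (Z : Set G)) (x y : G)
    (hxC : x ∈ Subgroup.normalizer (C : Set G)) (hyC : y ∈ Subgroup.normalizer (C : Set G))
    (hxZ : x ∈ Subgroup.normalizer (Z : Set G)) (hyZ : y ∈ Subgroup.normalizer (Z : Set G))
    (hx : ∀ u ∈ C, x * (x * u * x⁻¹ * u⁻¹) * x⁻¹ * (x * u * x⁻¹ * u⁻¹)⁻¹ ∈ Z)
    (hy : ∀ u ∈ C, y * (y * u * y⁻¹ * u⁻¹) * y⁻¹ * (y * u * y⁻¹ * u⁻¹)⁻¹ ∈ Z)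
    (h : G) (hh : h ∈ Subgroup.closure {x, y}) (hcop : (orderOf h).Coprime p) :
    ∀ u ∈ C, h * u * h⁻¹ * u⁻¹ ∈ Z := by
  set M := Subgroup.normalizer (Z : Set G) with hM
  let Zm : Subgroup M := Z.subgroupOf M
  have hZmn : Zm.Normal := Subgroup.normal_in_normalizer
  let π := QuotientGroup.mk' Zm
  let x' : M := ⟨x, hxZ⟩
  let y' : M := ⟨y, hyZ⟩
  have hcl : Subgroup.closure {x, y} ≤ M := by
    rw [Subgroup.closure_le]
    rintro z (rfl | rfl)
    · exact hxZ
    · exact hyZ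
  let h' : M := ⟨h, hcl hh⟩
  let P : Subgroup (M ⧸ Zm) := (C.subgroupOf M).map π
  have hPp : IsPGroup p P := (hC.comap_of_injective M.subtype M.subtype_injective).map π
  have hnorm : ∀ (z : G) (hz : z ∈ M), z ∈ Subgroup.normalizer (C : Set G) →
      π ⟨z, hz⟩ ∈ Subgroup.normalizer (P : Set (M ⧸ Zm)) := by
    intro z hz hzC
    have key : ∀ (z : G) (hz : z ∈ M), z ∈ Subgroup.normalizer (C : Set G) → ∀ w ∈ P,
        π ⟨z, hz⟩ * w * (π ⟨z, hz⟩)⁻¹ ∈ P := by
      rintro z hz hzC _ ⟨u, hu, rfl⟩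
      refine ⟨⟨z, hz⟩ * u * ⟨z, hz⟩⁻¹, ?_, by simp [map_mul, map_inv]⟩
      have h1 := (Subgroup.mem_normalizer_iff.1 hzC (u : G)).1 (Subgroup.mem_subgroupOf.1 hu)
      exact Subgroup.mem_subgroupOf.2 h1
    rw [Subgroup.mem_normalizer_iff]
    intro w
    constructor
    · intro hw
      exact key z hz hzC w hw
    · intro hw
      have h1 := key z⁻¹ (M.inv_mem hz) ((Subgroup.normalizer (C : Set G)).inv_mem hzC) _ hw
      have h2 : π ⟨z⁻¹, M.inv_mem hz⟩ = (π ⟨z, hz⟩)⁻¹ := by rw [← map_inv]; rfl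
      rw [h2] at h1
      convert h1 using 1
      group
  have hoddQ : Odd (Nat.card (M ⧸ Zm)) := by
    have h1 : Nat.card M = Nat.card (M ⧸ Zm) * Nat.card Zm := Subgroup.card_eq_card_quotient_mul_card_subgroup Zm
    have h2 : Odd (Nat.card M) := Odd.of_dvd_nat hodd (Subgroup.card_subgroup_dvd_card M)
    rw [h1] at h2
    exact (Nat.odd_mul.1 h2).1
  have hquad : ∀ (z : G) (hz : z ∈ M),
      (∀ u ∈ C, z * (z * u * z⁻¹ * u⁻¹) * z⁻¹ * (z * u * z⁻¹ * u⁻¹)⁻¹ ∈ Z) →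
      ∀ u ∈ P, Commute (π ⟨z, hz⟩) (π ⟨z, hz⟩ * u * (π ⟨z, hz⟩)⁻¹ * u⁻¹) := by
    rintro z hz hzq _ ⟨u, hu, rfl⟩
    have h1 := hzq u (Subgroup.mem_subgroupOf.1 hu)
    let z' : M := ⟨z, hz⟩
    have h2 : z' * (z' * u * z'⁻¹ * u⁻¹) * z'⁻¹ * (z' * u * z'⁻¹ * u⁻¹)⁻¹ ∈ Zm :=
      Subgroup.mem_subgroupOf.2 h1
    have h3 : π (z' * (z' * u * z'⁻¹ * u⁻¹) * z'⁻¹ * (z' * u * z'⁻¹ * u⁻¹)⁻¹) = 1 :=
      (QuotientGroup.eq_one_iff _).2 h2
    rw [map_mul, map_mul, map_mul, map_inv, map_inv, mul_inv_eq_one, mul_inv_eq_iff_eq_mul] at h3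
    simp only [map_mul, map_inv] at h3 ⊢
    exact h3
  have hclm : π h' ∈ Subgroup.closure {π x', π y'} := by
    have h1 : h' ∈ Subgroup.closure {x', y'} := by
      have h2 : (Subgroup.closure {x', y'}).map M.subtype = Subgroup.closure {x, y} := by
        rw [MonoidHom.map_closure]
        congr 1
        rw [Set.image_pair]; rfl
      have h3 : h ∈ (Subgroup.closure {x', y'}).map M.subtype := by rw [h2]; exact hh
      obtain ⟨w, hw, hw'⟩ := h3
      have : w = h' := Subtype.ext hw'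
      rw [← this]; exact hw
    have h2 : (Subgroup.closure {x', y'}).map π = Subgroup.closure {π x', π y'} := by
      rw [MonoidHom.map_closure, Set.image_pair]
    rw [← h2]
    exact ⟨h', h1, rfl⟩
  have hord : (orderOf (π h')).Coprime p := by
    refine Nat.Coprime.coprime_dvd_left ?_ hcop
    have h1 : orderOf h' = orderOf h := Subgroup.orderOf_mk h (hcl hh)
    rw [← h1]
    exact orderOf_map_dvd π h'
  have key := H25.odd_quadratic_pair_centralizes hp2 P hPp (π x') (π y') (hnorm x hxZ hxC)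
    (hnorm y hyZ hyC) (Odd.of_dvd_nat hoddQ (Subgroup.card_subgroup_dvd_card _))
    (hquad x hxZ hx) (hquad y hyZ hy) (π h') hclm hord
  intro u hu
  have h1 := key (π ⟨u, hCZ hu⟩) ⟨⟨u, hCZ hu⟩, Subgroup.mem_subgroupOf.2 hu, rfl⟩
  have h2 : π (h' * ⟨u, hCZ hu⟩ * h'⁻¹ * (⟨u, hCZ hu⟩ : M)⁻¹) = 1 := by
    rw [map_mul, map_mul, map_mul, h1, map_inv, map_inv]; group
  have h3 := (QuotientGroup.eq_one_iff _).1 h2
  exact Subgroup.mem_subgroupOf.1 h3

end Rel

section Core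

variable {G : Type*} [Group G] [Finite G] {p : ℕ} [Fact p.Prime]

theorem eq_bot_of_coprime_pCore {K : Subgroup G} (hK : (Nat.card K).Coprime p)
    (h : K ≤ pCore p G) : K = ⊥ := by
  have h6 : K ⊓ Cfsg.pCore p G = ⊥ := by
    apply Disjoint.eq_bot
    apply Subgroup.disjoint_of_coprime_natCard
    obtain ⟨n, hn⟩ := IsPGroup.iff_card.1 (Solv.pCore_isPGroup (G := G) p)
    rw [hn]
    exact hK.pow_right n
  rw [eq_bot_iff, ← h6]
  exact le_inf le_rfl h

/-- Key lemma: `B ⊴ T ⊴ S ∈ Syl_p(G)` abelian, self-centralizing in `S`; then no nontrivial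
`p'`-subgroup is normalized by `B`, if `C_G(O_p(G)) ≤ O_p(G)` and `|G|` is odd. -/
theorem eq_bot_of_normalized (hp2 : p ≠ 2) (hodd : Odd (Nat.card G))
    (hC : Subgroup.centralizer (pCore p G : Set G) ≤ pCore p G) (S : Sylow p G) (T B K : Subgroup G)
    (hBT : B ≤ T) (hTS : T ≤ S) (hTn : ∀ s ∈ S, ∀ t ∈ T, s * t * s⁻¹ ∈ T)
    (hBn : ∀ t ∈ T, ∀ b ∈ B, t * b * t⁻¹ ∈ B) (hBa : ∀ a ∈ B, ∀ b ∈ B, a * b = b * a)
    (hBc : ∀ s ∈ S, (∀ b ∈ B, s * b = b * s) → s ∈ B)
    (hKB : B ≤ Subgroup.normalizer (K : Set G)) (hK : (Nat.card K).Coprime p) : K = ⊥ := by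
  set R := pCore p G with hR
  have hRp : IsPGroup p R := Solv.pCore_isPGroup p
  have hRS : R ≤ S := Solv.pCore_le_sylow S
  have hRn : R.Normal := inferInstance
  have hRnorm : ∀ g : G, g ∈ Subgroup.normalizer (R : Set G) := by
    intro g
    rw [Subgroup.normalizer_eq_top_iff.2 hRn]; exact Subgroup.mem_top g
  have hKR : ∀ k, k ∈ K → k ∈ R → k = 1 := by
    intro k h1 h2
    have h3 : K ⊓ R = ⊥ := by
      apply Disjoint.eq_bot
      apply Subgroup.disjoint_of_coprime_natCard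
      obtain ⟨n, hn⟩ := IsPGroup.iff_card.1 hRp
      rw [hn]
      exact hK.pow_right n
    have : k ∈ K ⊓ R := ⟨h1, h2⟩
    rw [h3] at this
    exact Subgroup.mem_bot.1 this
  set A0 : Subgroup G := B ⊓ R with hA0
  have hKA0 : ∀ k ∈ K, ∀ a ∈ A0, k * a = a * k := by
    intro k hk a ha
    have h1 : k * a * k⁻¹ * a⁻¹ ∈ K := by
      have : k * a * k⁻¹ * a⁻¹ = k * (a * k⁻¹ * a⁻¹) := by group
      rw [this]
      exact K.mul_mem hk ((Subgroup.mem_normalizer_iff.1 (hKB ha.1) _).1 (K.inv_mem hk))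
    have h2 : k * a * k⁻¹ * a⁻¹ ∈ R := R.mul_mem (hRn.conj_mem a ha.2 k) (R.inv_mem ha.2)
    have h3 := hKR _ h1 h2
    rw [mul_inv_eq_one, mul_inv_eq_iff_eq_mul] at h3
    exact h3
  set C : Subgroup G := R ⊓ Subgroup.centralizer (A0 : Set G) with hCdef
  have hA0C : A0 ≤ C := by
    intro a ha
    refine Subgroup.mem_inf.2 ⟨ha.2, ?_⟩
    rw [Subgroup.mem_centralizer_iff]
    intro b hb
    exact hBa b hb.1 a ha.1
  have hCp : IsPGroup p C := hRp.to_le inf_le_left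
  -- elements centralizing A0 normalize C
  have hnormC : ∀ g : G, (∀ a ∈ A0, g * a = a * g) → g ∈ Subgroup.normalizer (C : Set G) := by
    intro g hg
    have hg' : g ∈ Subgroup.centralizer (A0 : Set G) := by
      rw [Subgroup.mem_centralizer_iff]
      intro a ha
      exact (hg a ha).symm
    rw [Subgroup.mem_normalizer_iff]
    intro u
    constructor
    · rintro ⟨h1, h2⟩
      exact ⟨hRn.conj_mem u h1 g, (Subgroup.centralizer (A0 : Set G)).mul_mem
        ((Subgroup.centralizer (A0 : Set G)).mul_mem hg' h2)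
        ((Subgroup.centralizer (A0 : Set G)).inv_mem hg')⟩
    · rintro ⟨h1, h2⟩
      have e : u = g⁻¹ * (g * u * g⁻¹) * g := by group
      refine ⟨?_, ?_⟩
      · rw [e]
        have := hRn.conj_mem _ h1 g⁻¹
        rwa [inv_inv] at this
      · rw [e]
        exact (Subgroup.centralizer (A0 : Set G)).mul_mem
          ((Subgroup.centralizer (A0 : Set G)).mul_mem
            ((Subgroup.centralizer (A0 : Set G)).inv_mem hg') h2) hg'
  have hnormA0 : ∀ g : G, (∀ a ∈ A0, g * a = a * g) → g ∈ Subgroup.normalizer (A0 : Set G) := by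
    intro g hg
    have hg' : g ∈ Subgroup.centralizer (A0 : Set G) := by
      rw [Subgroup.mem_centralizer_iff]
      intro a ha
      exact (hg a ha).symm
    exact Subgroup.centralizer_le_normalizer _ hg'
  have hBcent : ∀ b ∈ B, ∀ a ∈ A0, b * a = a * b := fun b hb a ha => hBa b hb a ha.1
  have hCA0 : C ≤ Subgroup.normalizer (A0 : Set G) := inf_le_right.trans (Subgroup.centralizer_le_normalizer _)
  -- quadratic action of B
  have hquad : ∀ x ∈ B, ∀ u ∈ C, x * (x * u * x⁻¹ * u⁻¹) * x⁻¹ * (x * u * x⁻¹ * u⁻¹)⁻¹ ∈ A0 := by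
    intro x hx u hu
    have hxT := hBT hx
    have huS : u ∈ (S : Subgroup G) := hRS hu.1
    have h1 : x * u * x⁻¹ * u⁻¹ ∈ T := by
      have : x * u * x⁻¹ * u⁻¹ = x * (u * x⁻¹ * u⁻¹) := by group
      rw [this]
      exact T.mul_mem hxT (hTn u huS _ (T.inv_mem hxT))
    have h2 : x * u * x⁻¹ * u⁻¹ ∈ R := R.mul_mem (hRn.conj_mem u hu.1 x) (R.inv_mem hu.1)
    set c := x * u * x⁻¹ * u⁻¹ with hc
    refine ⟨?_, R.mul_mem (hRn.conj_mem c h2 x) (R.inv_mem h2)⟩
    have : x * c * x⁻¹ * c⁻¹ = x * (c * x⁻¹ * c⁻¹) := by group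
    rw [this]
    exact B.mul_mem hx (hBn c h1 _ (B.inv_mem hx))
  -- [K, B] centralizes C
  have hstep : ∀ k ∈ K, ∀ x ∈ B, ∀ u ∈ C, (k * x * k⁻¹ * x⁻¹) * u = u * (k * x * k⁻¹ * x⁻¹) := by
    intro k hk x hx
    set y := k * x * k⁻¹ with hy
    have hkA0 : ∀ a ∈ A0, k * a = a * k := hKA0 k hk
    have hkC : k ∈ Subgroup.normalizer (C : Set G) := hnormC k hkA0
    have hkZ : k ∈ Subgroup.normalizer (A0 : Set G) := hnormA0 k hkA0
    have hxC : x ∈ Subgroup.normalizer (C : Set G) := hnormC x (hBcent x hx)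
    have hxZ : x ∈ Subgroup.normalizer (A0 : Set G) := hnormA0 x (hBcent x hx)
    have hyC : y ∈ Subgroup.normalizer (C : Set G) := mul_mem (mul_mem hkC hxC) (inv_mem hkC)
    have hyZ : y ∈ Subgroup.normalizer (A0 : Set G) := mul_mem (mul_mem hkZ hxZ) (inv_mem hkZ)
    have hhK : y * x⁻¹ ∈ K := by
      have : y * x⁻¹ = k * (x * k⁻¹ * x⁻¹) := by rw [hy]; group
      rw [this]
      exact K.mul_mem hk ((Subgroup.mem_normalizer_iff.1 (hKB hx) _).1 (K.inv_mem hk))
    have hord : (orderOf (y * x⁻¹)).Coprime p := by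
      refine Nat.Coprime.coprime_dvd_left ?_ hK
      rw [← Subgroup.orderOf_mk _ hhK]; exact orderOf_dvd_natCard _
    have hyq : ∀ u ∈ C, y * (y * u * y⁻¹ * u⁻¹) * y⁻¹ * (y * u * y⁻¹ * u⁻¹)⁻¹ ∈ A0 := by
      intro u hu
      have h1 : k⁻¹ * u * k ∈ C := by
        have := (Subgroup.mem_normalizer_iff.1 (inv_mem hkC) u).1 hu
        rwa [inv_inv] at this
      have h2 := hquad x hx _ h1
      have h3 := (Subgroup.mem_normalizer_iff.1 hkZ _).1 h2
      have e : y * (y * u * y⁻¹ * u⁻¹) * y⁻¹ * (y * u * y⁻¹ * u⁻¹)⁻¹ =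
          k * (x * (x * (k⁻¹ * u * k) * x⁻¹ * (k⁻¹ * u * k)⁻¹) * x⁻¹ *
            (x * (k⁻¹ * u * k) * x⁻¹ * (k⁻¹ * u * k)⁻¹)⁻¹) * k⁻¹ := by
        rw [hy]; group
      rw [e]; exact h3
    have key := odd_quadratic_pair_rel hp2 hodd C A0 hCp hCA0 x y hxC hyC hxZ hyZ (hquad x hx) hyq
      (y * x⁻¹) (mul_mem (Subgroup.subset_closure (by simp)) (inv_mem (Subgroup.subset_closure (by simp)))) hord
    intro u hu
    have hcopKA : (Nat.card K).Coprime (Nat.card A0) := by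
      obtain ⟨n, hn⟩ := IsPGroup.iff_card.1 (hRp.to_le (inf_le_right : A0 ≤ R))
      rw [hn]; exact hK.pow_right n
    refine BG.comm_of_commutator_mem (A := K) (K := A0) hcopKA hhK (fun a ha => hKA0 _ hhK a ha) ?_
    have h1 := key u hu
    have h2 := A0.inv_mem h1
    rw [commutatorElement_def]
    convert h2 using 1
    group
  -- the subgroup of K centralizing C is trivial
  set K1 : Subgroup G := K ⊓ Subgroup.centralizer (C : Set G) with hK1
  have hK1bot : K1 = ⊥ := by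
    have h1 : K1 ≤ Subgroup.centralizer (R : Set G) := by
      apply BG.le_centralizer_of_cent_cent_le hRp.isNilpotent
      · exact fun g _ => hRnorm g
      · obtain ⟨n, hn⟩ := IsPGroup.iff_card.1 hRp
        rw [hn]
        exact (Nat.Coprime.coprime_dvd_left (Subgroup.card_dvd_of_le inf_le_left) hK).pow_right n
      · have h2 : C ≤ R ⊓ Subgroup.centralizer (K1 : Set G) := by
          refine le_inf inf_le_left ?_
          rw [Subgroup.le_centralizer_iff]
          exact inf_le_right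
        have h3 : R ⊓ Subgroup.centralizer ((R ⊓ Subgroup.centralizer (K1 : Set G) : Subgroup G) : Set G) ≤ C := by
          refine inf_le_inf_left R ?_
          exact Subgroup.centralizer_le (SetLike.coe_subset_coe.2 (hA0C.trans h2))
        exact h3.trans h2
    apply eq_bot_of_coprime_pCore (p := p) (Nat.Coprime.coprime_dvd_left (Subgroup.card_dvd_of_le inf_le_left) hK)
    exact h1.trans hC
  have hKBcomm : ∀ k ∈ K, ∀ x ∈ B, k * x = x * k := by
    intro k hk x hx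
    have hhK : k * x * k⁻¹ * x⁻¹ ∈ K := by
      have : k * x * k⁻¹ * x⁻¹ = k * (x * k⁻¹ * x⁻¹) := by group
      rw [this]
      exact K.mul_mem hk ((Subgroup.mem_normalizer_iff.1 (hKB hx) _).1 (K.inv_mem hk))
    have h1 : k * x * k⁻¹ * x⁻¹ ∈ K1 := by
      refine Subgroup.mem_inf.2 ⟨hhK, ?_⟩
      rw [Subgroup.mem_centralizer_iff]
      intro u hu
      exact (hstep k hk x hx u hu).symm
    rw [hK1bot, Subgroup.mem_bot, mul_inv_eq_one, mul_inv_eq_iff_eq_mul] at h1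
    exact h1
  have hBp : IsPGroup p B := S.isPGroup'.to_le (hBT.trans hTS)
  have h1 : K ≤ Subgroup.centralizer (R : Set G) := by
    apply Cop.le_centralizer_of_AxB p hBp hK hRp
    · intro b hb
      rw [Subgroup.mem_centralizer_iff]
      intro k hk
      exact hKBcomm k hk b hb
    · exact fun g _ => hRnorm g
    · exact fun g _ => hRnorm g
    · rintro r ⟨hr, hr'⟩
      rw [Subgroup.mem_centralizer_iff]
      intro k hk
      apply hKA0 k hk
      refine ⟨hBc r (hRS hr) ?_, hr⟩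
      intro b hb
      exact ((Subgroup.mem_centralizer_iff.1 hr') b hb).symm
  exact eq_bot_of_coprime_pCore (p := p) hK (h1.trans hC)

/-- The same for solvable `G`, conclusion `K ≤ O_{p'}(G)`. -/
theorem le_pPrimeCore_of_normalized [Group.IsSolvable G] (hp2 : p ≠ 2) (hodd : Odd (Nat.card G))
    (S : Sylow p G) (T B K : Subgroup G)
    (hBT : B ≤ T) (hTS : T ≤ S) (hTn : ∀ s ∈ S, ∀ t ∈ T, s * t * s⁻¹ ∈ T)
    (hBn : ∀ t ∈ T, ∀ b ∈ B, t * b * t⁻¹ ∈ B) (hBa : ∀ a ∈ B, ∀ b ∈ B, a * b = b * a)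
    (hBc : ∀ s ∈ S, (∀ b ∈ B, s * b = b * s) → s ∈ B)
    (hKB : B ≤ Subgroup.normalizer (K : Set G)) (hK : (Nat.card K).Coprime p) :
    K ≤ pPrimeCore p G := by
  set N := Cfsg.pPrimeCore p G with hN
  let π := QuotientGroup.mk' N
  have hsurj : Function.Surjective π := QuotientGroup.mk'_surjective N
  have h1 : Cfsg.pPrimeCore p (G ⧸ N) = ⊥ := Solv.pPrimeCore_quotient_pPrimeCore p
  have hoddQ : Odd (Nat.card (G ⧸ N)) := by
    have h1 : Nat.card G = Nat.card (G ⧸ N) * Nat.card N := Subgroup.card_eq_card_quotient_mul_card_subgroup N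
    rw [h1] at hodd
    exact (Nat.odd_mul.1 hodd).1
  have hSN : ∀ s, s ∈ (S : Subgroup G) → s ∈ N → s = 1 := by
    intro s h1 h2
    exact H36.PQuot.eq_one_of_mem (Solv.pPrimeCore_card_coprime p) S.isPGroup' h2 h1
  have key := eq_bot_of_normalized (G := G ⧸ N) hp2 hoddQ (H91.centralizer_pCore_le p h1)
    (S.mapSurjective hsurj) (T.map π) (B.map π) (K.map π) (Subgroup.map_mono hBT)
    (by rw [Sylow.coe_mapSurjective]; exact Subgroup.map_mono hTS)
    (by
      rintro _ ⟨s, hs, rfl⟩ _ ⟨t, ht, rfl⟩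
      exact ⟨s * t * s⁻¹, hTn s hs t ht, by simp [map_mul, map_inv]⟩)
    (by
      rintro _ ⟨t, ht, rfl⟩ _ ⟨b, hb, rfl⟩
      exact ⟨t * b * t⁻¹, hBn t ht b hb, by simp [map_mul, map_inv]⟩)
    (by
      rintro _ ⟨a, ha, rfl⟩ _ ⟨b, hb, rfl⟩
      rw [← map_mul, ← map_mul, hBa a ha b hb])
    (by
      rintro _ ⟨s, hs, rfl⟩ h
      refine ⟨s, hBc s hs ?_, rfl⟩
      intro b hb
      have h2 := h (π b) ⟨b, hb, rfl⟩
      rw [← map_mul, ← map_mul] at h2
      have h3 : s * b * s⁻¹ * b⁻¹ ∈ N := by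
        rw [← QuotientGroup.eq_one_iff]
        change π _ = 1
        rw [map_mul, map_mul, h2, map_mul, map_inv, map_inv]; group
      have hbS : b ∈ (S : Subgroup G) := hTS (hBT hb)
      have h4 := hSN _ (mul_mem (mul_mem (mul_mem hs hbS) (inv_mem hs)) (inv_mem hbS)) h3
      rw [mul_inv_eq_one, mul_inv_eq_iff_eq_mul] at h4
      exact h4)
    (by
      rintro _ ⟨b, hb, rfl⟩
      rw [Subgroup.mem_normalizer_iff]
      intro u
      constructor
      · rintro ⟨k, hk, rfl⟩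
        exact ⟨b * k * b⁻¹, (Subgroup.mem_normalizer_iff.1 (hKB hb) k).1 hk, by simp [map_mul, map_inv]⟩
      · rintro ⟨k, hk, hk'⟩
        have h5 := (Subgroup.mem_normalizer_iff.1 (inv_mem (hKB hb)) k).1 hk
        refine ⟨_, h5, ?_⟩
        rw [map_mul, map_mul, hk', map_inv, inv_inv]
        group)
    (by
      refine Nat.Coprime.coprime_dvd_left ?_ hK
      exact Subgroup.card_map_dvd _ _)
  intro k hk
  have h2 : π k ∈ K.map π := ⟨k, hk, rfl⟩
  rw [key, Subgroup.mem_bot] at h2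
  exact (QuotientGroup.eq_one_iff _).1 h2

end Core

end Cfsg.Agent.H9
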