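import Cfsg.Agent.H9.OddTrans
import Cfsg.Agent.H9.SylowUtil
import Cfsg.Agent.BG.Core

/-!
Thompson transitivity theorem for groups of odd order, part 2.
-/

set_option autoImplicit false
set_option linter.unusedSectionVars false
set_option linter.style.haveILetI false

open Cfsg
open scoped commutatorElement Pointwise

namespace Cfsg.Agent.H9

section Balance

variable {G : Type*} [Group G] [Finite G] {p : ℕ} [Fact p.Prime]

/-- In a solvable group a `p'`-subgroup `W ≤ C_G(A)` normalized by `C_G(A)`, `A` a `p`-subgroup,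
lies in `O_{p'}(G)`. -/
theorem le_pPrimeCore_of_normalized_centralizer [Group.IsSolvable G] (A W : Subgroup G)
    (hA : IsPGroup p A) (hWA : W ≤ Subgroup.centralizer (A : Set G))
    (hW : (Nat.card W).Coprime p) (hWn : Subgroup.centralizer (A : Set G) ≤ Subgroup.normalizer (W : Set G)) :
    W ≤ pPrimeCore p G := by
  set N := Cfsg.pPrimeCore p G with hN
  have hNc : (Nat.card N).Coprime p := Solv.pPrimeCore_card_coprime p
  let π := QuotientGroup.mk' N
  have hsurj : Function.Surjective π := QuotientGroup.mk'_surjective N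
  have h1 : Cfsg.pPrimeCore p (G ⧸ N) = ⊥ := Solv.pPrimeCore_quotient_pPrimeCore p
  have hC := H91.centralizer_pCore_le p h1
  set R := pCore p (G ⧸ N) with hR
  have hRp : IsPGroup p R := Solv.pCore_isPGroup p
  have hRn : R.Normal := inferInstance
  have hRnorm : ∀ g, g ∈ Subgroup.normalizer (R : Set (G ⧸ N)) := by
    intro g
    rw [Subgroup.normalizer_eq_top_iff.2 hRn]; exact Subgroup.mem_top g
  have hWc : (Nat.card (W.map π)).Coprime p :=
    Nat.Coprime.coprime_dvd_left (Subgroup.card_map_dvd _ _) hW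
  have hWR : ∀ k, k ∈ W.map π → k ∈ R → k = 1 := by
    intro k h1 h2
    have h3 : W.map π ⊓ R = ⊥ := by
      apply Disjoint.eq_bot
      apply Subgroup.disjoint_of_coprime_natCard
      obtain ⟨n, hn⟩ := IsPGroup.iff_card.1 hRp
      rw [hn]
      exact hWc.pow_right n
    have : k ∈ W.map π ⊓ R := ⟨h1, h2⟩
    rw [h3] at this
    exact Subgroup.mem_bot.1 this
  have hmap := H36.PQuot.map_centralizer hNc hA
  have key : W.map π ≤ Subgroup.centralizer (R : Set (G ⧸ N)) := by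
    apply Cop.le_centralizer_of_AxB p (hA.map π) hWc hRp
    · rintro _ ⟨a, ha, rfl⟩
      rw [Subgroup.mem_centralizer_iff]
      rintro _ ⟨w, hw, rfl⟩
      have := (Subgroup.mem_centralizer_iff.1 (hWA hw)) a ha
      rw [← map_mul, ← map_mul, this]
    · exact fun g _ => hRnorm g
    · exact fun g _ => hRnorm g
    · rintro r ⟨hr, hr'⟩
      rw [Subgroup.mem_centralizer_iff]
      rintro _ ⟨w, hw, rfl⟩
      have h2 : r ∈ (Subgroup.centralizer (A : Set G)).map π := by rw [hmap]; exact hr'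
      obtain ⟨c, hc, rfl⟩ := h2
      have h3 : π w * π c * (π w)⁻¹ * (π c)⁻¹ ∈ W.map π := by
        refine ⟨w * (c * w⁻¹ * c⁻¹), W.mul_mem hw ?_, by simp only [map_mul, map_inv]; group⟩
        exact (Subgroup.mem_normalizer_iff.1 (hWn hc) _).1 (W.inv_mem hw)
      have h4 : π w * π c * (π w)⁻¹ * (π c)⁻¹ ∈ R :=
        R.mul_mem (hRn.conj_mem _ hr _) (R.inv_mem hr)
      have h5 := hWR _ h3 h4
      rw [mul_inv_eq_one, mul_inv_eq_iff_eq_mul] at h5
      exact h5
  have h2 : W.map π = ⊥ := eq_bot_of_coprime_pCore (p := p) hWc (key.trans hC)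
  intro w hw
  have h3 : π w ∈ W.map π := ⟨w, hw, rfl⟩
  rw [h2, Subgroup.mem_bot] at h3
  exact (QuotientGroup.eq_one_iff _).1 h3

end Balance

section Trans

variable {X : Type*} [Group X] [Finite X] {p : ℕ} [Fact p.Prime]

/-- `O_{p'}(C_X(a))` as a subgroup of `X`. -/
def th (p : ℕ) {X : Type*} [Group X] (a : X) : Subgroup X :=
  (pPrimeCore p (Subgroup.centralizer ({a} : Set X))).map (Subgroup.centralizer ({a} : Set X)).subtype

theorem th_le (a : X) : th p a ≤ Subgroup.centralizer ({a} : Set X) := Subgroup.map_subtype_le _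

theorem th_card (a : X) : (Nat.card (th p a)).Coprime p := by
  rw [th, Subgroup.card_map_of_injective (Subgroup.subtype_injective _)]
  exact Solv.pPrimeCore_card_coprime p

theorem centralizer_le_normalizer_th (a : X) :
    Subgroup.centralizer ({a} : Set X) ≤ Subgroup.normalizer (th p a : Set X) :=
  BG.le_normalizer_map_normal _ _

/-- balance -/
theorem th_inf_le {a b : X} (hb : IsPGroup p (Subgroup.zpowers b)) (hab : a * b = b * a)
    (hs : Group.IsSolvable (Subgroup.centralizer ({a} : Set X))) :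
    th p b ⊓ Subgroup.centralizer ({a} : Set X) ≤ th p a := by
  set D := Subgroup.centralizer ({a} : Set X) with hD
  have hbD : b ∈ D := Subgroup.mem_centralizer_singleton_iff.2 hab.symm
  haveI := hs
  have hcz : ∀ g : X, g ∈ Subgroup.centralizer ({b} : Set X) ↔ g * b = b * g :=
    fun g => Subgroup.mem_centralizer_singleton_iff
  have key := le_pPrimeCore_of_normalized_centralizer (p := p) (G := D)
    (Subgroup.zpowers (⟨b, hbD⟩ : D)) ((th p b).subgroupOf D) (by
      have h1 : (Subgroup.zpowers (⟨b, hbD⟩ : D)).map D.subtype = Subgroup.zpowers b := by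
        rw [MonoidHom.map_zpowers]; rfl
      refine (hb.comap_of_injective D.subtype D.subtype_injective).to_le ?_
      rw [← Subgroup.map_le_iff_le_comap, h1])
    (by
      intro w hw
      have h1 := (hcz _).1 (th_le b (Subgroup.mem_subgroupOf.1 hw))
      rw [Subgroup.zpowers_eq_closure, Subgroup.centralizer_closure, Subgroup.mem_centralizer_singleton_iff]
      exact Subtype.ext h1)
    (Nat.Coprime.coprime_dvd_left (Subgroup.card_comap_dvd_of_injective _ _ (Subgroup.subtype_injective _)) (th_card b))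
    (by
      intro c hc
      rw [Subgroup.zpowers_eq_closure, Subgroup.centralizer_closure, Subgroup.mem_centralizer_singleton_iff] at hc
      have hc' : (c : X) * b = b * c := congrArg Subtype.val hc
      have h1 := centralizer_le_normalizer_th (p := p) b ((hcz _).2 hc')
      rw [Subgroup.mem_normalizer_iff] at h1 ⊢
      intro w
      exact h1 (w : X))
  rintro x ⟨hx, hxD⟩
  exact ⟨⟨x, hxD⟩, key (Subgroup.mem_subgroupOf.2 hx), rfl⟩

/-- relative form of `le_pPrimeCore_of_normalized`, inside `C_X(b)`. -/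
theorem le_th_of_normalized (hp2 : p ≠ 2) (hodd : Odd (Nat.card X)) (b : X)
    (hs : Group.IsSolvable (Subgroup.centralizer ({b} : Set X)))
    (S T B K : Subgroup X) (hS : SigF.IsSyl p S (Subgroup.centralizer ({b} : Set X)))
    (hBT : B ≤ T) (hTS : T ≤ S) (hTn : ∀ s ∈ S, ∀ t ∈ T, s * t * s⁻¹ ∈ T)
    (hBn : ∀ t ∈ T, ∀ b ∈ B, t * b * t⁻¹ ∈ B) (hBa : ∀ a ∈ B, ∀ b ∈ B, a * b = b * a)
    (hBc : ∀ s ∈ S, (∀ b ∈ B, s * b = b * s) → s ∈ B)
    (hKD : K ≤ Subgroup.centralizer ({b} : Set X))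
    (hKB : B ≤ Subgroup.normalizer (K : Set X)) (hK : (Nat.card K).Coprime p) :
    K ≤ th p b := by
  set D := Subgroup.centralizer ({b} : Set X) with hD
  obtain ⟨S', hS'⟩ := hS
  haveI := hs
  have hSD : S ≤ D := by rw [← hS']; exact Subgroup.map_subtype_le _
  have hS'mem : ∀ s : D, s ∈ (S' : Subgroup D) ↔ (s : X) ∈ S := by
    intro s
    rw [← hS']
    constructor
    · intro h; exact ⟨s, h, rfl⟩
    · rintro ⟨t, ht, hts⟩
      have : t = s := Subtype.ext hts
      rw [← this]; exact ht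
  have key := le_pPrimeCore_of_normalized (p := p) (G := D) hp2
    (Odd.of_dvd_nat hodd (Subgroup.card_subgroup_dvd_card D)) S' (T.subgroupOf D) (B.subgroupOf D)
    (K.subgroupOf D)
    (fun x hx => Subgroup.mem_subgroupOf.2 (hBT (Subgroup.mem_subgroupOf.1 hx)))
    (fun x hx => (hS'mem x).2 (hTS (Subgroup.mem_subgroupOf.1 hx)))
    (fun s hs t ht => Subgroup.mem_subgroupOf.2 (hTn s ((hS'mem s).1 hs) t (Subgroup.mem_subgroupOf.1 ht)))
    (fun s hs t ht => Subgroup.mem_subgroupOf.2 (hBn s (Subgroup.mem_subgroupOf.1 hs) t (Subgroup.mem_subgroupOf.1 ht)))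
    (fun s hs t ht => Subtype.ext (hBa s (Subgroup.mem_subgroupOf.1 hs) t (Subgroup.mem_subgroupOf.1 ht)))
    (fun s hs h => Subgroup.mem_subgroupOf.2 (hBc s ((hS'mem s).1 hs) (fun b hb =>
      congrArg Subtype.val (h ⟨b, hSD (hTS (hBT hb))⟩ (Subgroup.mem_subgroupOf.2 hb)))))
    (by
      intro b hb
      have h1 := hKB (Subgroup.mem_subgroupOf.1 hb)
      rw [Subgroup.mem_normalizer_iff] at h1 ⊢
      intro w
      exact h1 (w : X))
    (Nat.Coprime.coprime_dvd_left (Subgroup.card_comap_dvd_of_injective _ _ (Subgroup.subtype_injective _)) hK)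
  intro x hx
  exact ⟨⟨x, hKD hx⟩, key (Subgroup.mem_subgroupOf.2 hx), rfl⟩

variable (hp2 : p ≠ 2) (hodd : Odd (Nat.card X))
  (hloc : ∀ T : Subgroup X, IsPGroup p T → T ≠ ⊥ → Group.IsSolvable (Subgroup.normalizer (T : Set X)))
  (P : Sylow p X) (B : Subgroup X) (hBP : B ≤ (P : Subgroup X))
  (hBn : ∀ x ∈ (P : Subgroup X), ∀ b ∈ B, x * b * x⁻¹ ∈ B) (hBa : ∀ a ∈ B, ∀ b ∈ B, a * b = b * a)
  (hBc : ∀ s ∈ (P : Subgroup X), (∀ b ∈ B, s * b = b * s) → s ∈ B)

include hloc in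
theorem solvable_centralizer {b : X} (hb : IsPGroup p (Subgroup.zpowers b)) (hb1 : b ≠ 1) :
    Group.IsSolvable (Subgroup.centralizer ({b} : Set X)) := by
  have h1 := hloc (Subgroup.zpowers b) hb (by rwa [Ne, Subgroup.zpowers_eq_bot])
  have h2 : Subgroup.centralizer ({b} : Set X) ≤ Subgroup.normalizer ((Subgroup.zpowers b : Subgroup X) : Set X) := by
    rw [← SigF.centralizer_zpowers']
    exact Subgroup.centralizer_le_normalizer _
  exact SigF.solvable_of_le h1 h2

include hBP hBn hBa hBc in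
/-- `B` contains all `p`-elements of its centralizer. -/
theorem mem_of_centralizes {S : Subgroup X} (hS : IsPGroup p S) {s : X} (hs : s ∈ S)
    (h : ∀ b ∈ B, s * b = b * s) : s ∈ B := by
  have hPN : (P : Subgroup X) ≤ Subgroup.normalizer (B : Set X) := by
    intro x hx
    rw [Subgroup.mem_normalizer_iff]
    intro u
    constructor
    · exact hBn x hx u
    · intro hu
      have := hBn x⁻¹ (inv_mem hx) _ hu
      convert this using 1; group
  set N := Subgroup.normalizer (B : Set X) with hN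
  have hsC : s ∈ Subgroup.centralizer (B : Set X) := by
    rw [Subgroup.mem_centralizer_iff]; intro b hb; exact (h b hb).symm
  have hsN : Subgroup.zpowers s ≤ N := by
    rw [Subgroup.zpowers_le]
    exact Subgroup.centralizer_le_normalizer _ hsC
  have hsp : IsPGroup p (Subgroup.zpowers s) := hS.to_le (Subgroup.zpowers_le.2 hs)
  -- P is Sylow in N
  let PN : Sylow p N := P.subtype hPN
  obtain ⟨Q, hQ⟩ := (hsp.comap_of_injective N.subtype N.subtype_injective).exists_le_sylow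
  obtain ⟨g, hg⟩ := MulAction.exists_smul_eq N Q PN
  have hsQ : (⟨s, hsN (Subgroup.mem_zpowers s)⟩ : N) ∈ Q := hQ (Subgroup.mem_zpowers s)
  have h1 : g * ⟨s, hsN (Subgroup.mem_zpowers s)⟩ * g⁻¹ ∈ PN := by
    rw [← hg]
    exact ⟨_, hsQ, rfl⟩
  have h2 : (g : X) * s * (g : X)⁻¹ ∈ (P : Subgroup X) := h1
  have h3 : (g : X) * s * (g : X)⁻¹ ∈ B := by
    apply hBc _ h2
    intro b hb
    have h4 : (g : X)⁻¹ * b * g ∈ B := by
      have := (Subgroup.mem_normalizer_iff.1 (inv_mem g.2) b).1 hb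
      rwa [inv_inv] at this
    have h5 := h _ h4
    calc (g : X) * s * (g : X)⁻¹ * b = g * (s * ((g : X)⁻¹ * b * g)) * (g : X)⁻¹ := by group
      _ = g * (((g : X)⁻¹ * b * g) * s) * (g : X)⁻¹ := by rw [h5]
      _ = b * (g * s * (g : X)⁻¹) := by group
  exact (Subgroup.mem_normalizer_iff.1 g.2 s).2 h3

include hp2 hodd hloc hBP hBn hBa hBc in
/-- elements `b ∈ B` with `|P : C_P(b)| ≤ p`. -/
theorem le_th_of_relIndex {b : X} (hb : b ∈ B) (hb1 : b ≠ 1)
    (hidx : ((P : Subgroup X) ⊓ Subgroup.centralizer ({b} : Set X)).relIndex P ≤ p)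
    {K : Subgroup X} (hKD : K ≤ Subgroup.centralizer ({b} : Set X))
    (hKB : B ≤ Subgroup.normalizer (K : Set X)) (hK : (Nat.card K).Coprime p) : K ≤ th p b := by
  have hp : p.Prime := Fact.out
  set T := (P : Subgroup X) ⊓ Subgroup.centralizer ({b} : Set X) with hT
  have hTp : IsPGroup p T := P.isPGroup'.to_le inf_le_left
  obtain ⟨S, hS, hTS⟩ := SigF.exists_isSyl_ge (q := p) hTp (inf_le_right : T ≤ Subgroup.centralizer ({b} : Set X))
  have hSp : IsPGroup p S := hS.isPGroup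
  have hBT : B ≤ T := le_inf hBP (fun x hx => Subgroup.mem_centralizer_singleton_iff.2 (hBa x hx b hb))
  have hcardS : Nat.card S ≤ Nat.card P := by
    obtain ⟨Q, hQ⟩ := hSp.exists_le_sylow
    calc Nat.card S ≤ Nat.card Q := Nat.le_of_dvd Nat.card_pos (Subgroup.card_dvd_of_le hQ)
      _ = Nat.card P := Nat.card_congr (Sylow.equiv Q P).toEquiv
  have e1 : Nat.card T * T.relIndex S = Nat.card S := by
    have := Subgroup.relIndex_mul_relIndex ⊥ T S bot_le hTS
    rwa [Subgroup.relIndex_bot_left, Subgroup.relIndex_bot_left] at this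
  have e2 : Nat.card T * T.relIndex P = Nat.card P := by
    have := Subgroup.relIndex_mul_relIndex ⊥ T P bot_le inf_le_left
    rwa [Subgroup.relIndex_bot_left, Subgroup.relIndex_bot_left] at this
  have hle : T.relIndex S ≤ p := by
    refine le_trans ?_ hidx
    have h1 : Nat.card T * T.relIndex S ≤ Nat.card T * T.relIndex P := by rw [e1, e2]; exact hcardS
    exact Nat.le_of_mul_le_mul_left h1 Nat.card_pos
  have hTn : (T.subgroupOf S).Normal := by
    obtain ⟨n, hn⟩ := IsPGroup.iff_card.1 hSp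
    have h1 : T.relIndex S ∣ p ^ n := by rw [← hn]; exact Subgroup.index_dvd_card _
    obtain ⟨k, hk, hk'⟩ := (Nat.dvd_prime_pow hp).1 h1
    have h2 : k ≤ 1 := by
      by_contra hcon
      push Not at hcon
      have h3 : p ^ 2 ≤ p ^ k := Nat.pow_le_pow_right hp.pos hcon
      rw [← hk'] at h3
      have h4 : p < p ^ 2 := by
        have := hp.one_lt
        nlinarith
      omega
    rcases Nat.le_one_iff_eq_zero_or_eq_one.1 h2 with rfl | rfl
    · rw [pow_zero] at hk'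
      have : T.subgroupOf S = ⊤ := Subgroup.index_eq_one.1 hk'
      rw [this]; infer_instance
    · rw [pow_one] at hk'
      exact H63.normal_of_index_prime hSp hk'
  have hbp : IsPGroup p (Subgroup.zpowers b) := (P.isPGroup'.to_le hBP).to_le (Subgroup.zpowers_le.2 hb)
  apply le_th_of_normalized hp2 hodd b (solvable_centralizer hloc hbp hb1) S T B K hS hBT hTS
    ?_ (fun t ht => hBn t ht.1) hBa (fun s hs h => mem_of_centralizes P B hBP hBn hBa hBc hSp hs h) hKD hKB hK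
  intro s hs t ht
  exact Subgroup.mem_subgroupOf.1 (hTn.conj_mem ⟨t, hTS ht⟩ (Subgroup.mem_subgroupOf.2 ht) ⟨s, hs⟩)


include hp2 hodd hloc hBP hBn hBa hBc in
/-- All `B`-invariant `p'`-subgroups of `C_X(a)`, `a ∈ B`, lie in `O_{p'}(C_X(a))`. -/
theorem le_th_of_invariant (B0 : Subgroup X) (hB0B : B0 ≤ B) (hB0 : Cfsg.IsElementaryAbelian p B0)
    (hB0c : Nat.card B0 = p ^ 2) (hB0n : ∀ x ∈ (P : Subgroup X), ∀ b ∈ B0, x * b * x⁻¹ ∈ B0)
    {a : X} (ha : a ∈ B) (ha1 : a ≠ 1)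
    {K : Subgroup X} (hKD : K ≤ Subgroup.centralizer ({a} : Set X))
    (hKB : B ≤ Subgroup.normalizer (K : Set X)) (hK : (Nat.card K).Coprime p) : K ≤ th p a := by
  have hp : p.Prime := Fact.out
  have hpK : ¬ p ∣ Nat.card K := fun h => hp.one_lt.ne' (Nat.eq_one_of_dvd_coprimes hK h dvd_rfl)
  have hBp : IsPGroup p B := P.isPGroup'.to_le hBP
  have hidx : ∀ b ∈ B0, b ≠ 1 → ((P : Subgroup X) ⊓ Subgroup.centralizer ({b} : Set X)).relIndex P ≤ p := by
    intro b hb hb1
    set H := ((P : Subgroup X) ⊓ Subgroup.centralizer ({b} : Set X)).subgroupOf P with hH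
    have h1 : Nat.card ((P : Subgroup X) ⧸ H) ≤ Nat.card {x : X // x ∈ (B0 : Set X) \ {1}} := by
      apply Nat.card_le_card_of_injective
        (fun q : (P : Subgroup X) ⧸ H => (⟨(q.out : X) * b * (q.out : X)⁻¹,
          ⟨hB0n _ q.out.2 b hb, by
            rw [Set.mem_singleton_iff]
            intro h
            apply hb1
            have : b = (q.out : X)⁻¹ * ((q.out : X) * b * (q.out : X)⁻¹) * q.out := by group
            rw [this, h]; group⟩⟩ : {x : X // x ∈ (B0 : Set X) \ {1}}))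
      intro q1 q2 h
      have h2 : (q1.out : X) * b * (q1.out : X)⁻¹ = (q2.out : X) * b * (q2.out : X)⁻¹ := congrArg Subtype.val h
      rw [← q1.out_eq', ← q2.out_eq', QuotientGroup.eq]
      refine Subgroup.mem_subgroupOf.2 (Subgroup.mem_inf.2 ⟨(q1.out⁻¹ * q2.out).2, ?_⟩)
      rw [Subgroup.mem_centralizer_singleton_iff]
      push_cast
      calc (q1.out : X)⁻¹ * q2.out * b = (q1.out : X)⁻¹ * ((q2.out : X) * b * (q2.out : X)⁻¹) * q2.out := by group
        _ = (q1.out : X)⁻¹ * ((q1.out : X) * b * (q1.out : X)⁻¹) * q2.out := by rw [h2]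
        _ = b * ((q1.out : X)⁻¹ * q2.out) := by group
    have h2 : Nat.card {x : X // x ∈ (B0 : Set X) \ {1}} < p ^ 2 := by
      rw [← hB0c]
      have h3 : Nat.card {x : X // x ∈ (B0 : Set X) \ {1}} = ((B0 : Set X) \ {1}).ncard := rfl
      have h4 : Nat.card B0 = (B0 : Set X).ncard := rfl
      rw [h3, h4]
      exact Set.ncard_lt_ncard (Set.sdiff_singleton_ssubset.2 B0.one_mem) (Set.toFinite _)
    have h3 : H.index < p ^ 2 := lt_of_le_of_lt h1 h2
    obtain ⟨n, hn⟩ := IsPGroup.iff_card.1 P.isPGroup'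
    have h4 : H.index ∣ p ^ n := by rw [← hn]; exact Subgroup.index_dvd_card _
    obtain ⟨k, hk, hk'⟩ := (Nat.dvd_prime_pow hp).1 h4
    change H.index ≤ p
    rw [hk'] at h3 ⊢
    have h5 : k < 2 := (Nat.pow_lt_pow_iff_right hp.one_lt).1 h3
    calc p ^ k ≤ p ^ 1 := Nat.pow_le_pow_right hp.pos (by omega)
      _ = p := pow_one p
  have key := SigF.eq_of_fixed_le (p := p) (A := B0) (K := K) (H := K ⊓ th p a) hB0 hB0c.ge hpK
    (hB0B.trans hKB) inf_le_left (by
      intro b hb hb1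
      have hbB := hB0B hb
      have hbp : IsPGroup p (Subgroup.zpowers b) := hBp.to_le (Subgroup.zpowers_le.2 hbB)
      have hap : IsPGroup p (Subgroup.zpowers a) := hBp.to_le (Subgroup.zpowers_le.2 ha)
      have h1 : K ⊓ Subgroup.centralizer {b} ≤ th p b := by
        apply le_th_of_relIndex hp2 hodd hloc P B hBP hBn hBa hBc hbB hb1 (hidx b hb hb1) inf_le_right
        · apply SigF.le_normalizer_inf hKB
          intro c hc
          exact Subgroup.le_normalizer (Subgroup.mem_centralizer_singleton_iff.2 (hBa c hc b hbB))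
        · exact Nat.Coprime.coprime_dvd_left (Subgroup.card_dvd_of_le inf_le_left) hK
      refine le_inf inf_le_left ?_
      refine le_trans (le_inf h1 (inf_le_left.trans hKD)) ?_
      exact th_inf_le hbp (hBa a ha b hbB) (solvable_centralizer hloc hap ha1))
  rw [← key]
  exact inf_le_right

/-- maximal `B`-invariant `q`-subgroups -/
def MaxInv (q : ℕ) {X : Type*} [Group X] (B Q : Subgroup X) : Prop :=
  IsPGroup q Q ∧ B ≤ Subgroup.normalizer (Q : Set X) ∧
    ∀ R : Subgroup X, IsPGroup q R → B ≤ Subgroup.normalizer (R : Set X) → Q ≤ R → R = Q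

theorem exists_maxInv_ge {q : ℕ} {B U : Subgroup X} (hU : IsPGroup q U) (hBU : B ≤ Subgroup.normalizer (U : Set X)) :
    ∃ Q, MaxInv q B Q ∧ U ≤ Q := by
  obtain ⟨Q, hUQ, hmax⟩ := (Set.toFinite {Q : Subgroup X | IsPGroup q Q ∧ B ≤ Subgroup.normalizer (Q : Set X)}).exists_le_maximal
    (a := U) ⟨hU, hBU⟩
  exact ⟨Q, ⟨hmax.prop.1, hmax.prop.2, fun R hR hRq hQR => le_antisymm (hmax.le_of_ge ⟨hR, hRq⟩ hQR) hQR⟩, hUQ⟩

theorem MaxInv.cj {q : ℕ} {B Q : Subgroup X} (hQ : MaxInv q B Q) {c : X} (hc : ∀ b ∈ B, b * c = c * b) :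
    MaxInv q B (SigF.cj c Q) := by
  refine ⟨SigF.isPGroup_cj hQ.1, SigF.le_normalizer_cj hQ.2.1 hc, fun R hR hRB hQR => ?_⟩
  have hc' : ∀ b ∈ B, b * c⁻¹ = c⁻¹ * b := by
    intro b hb
    have := hc b hb
    calc b * c⁻¹ = c⁻¹ * (c * b) * c⁻¹ := by group
      _ = c⁻¹ * (b * c) * c⁻¹ := by rw [this]
      _ = c⁻¹ * b := by group
  have h1 := hQ.2.2 (SigF.cj c⁻¹ R) (SigF.isPGroup_cj hR) (SigF.le_normalizer_cj hRB hc')
    (by rw [← SigF.cj_le_cj (g := c), SigF.cj_cj_inv]; exact hQR)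
  rw [← h1, SigF.cj_cj_inv]

/-- the transitivity theorem, abstract form. -/
theorem transitivity {B E : Subgroup X} (hBp : IsPGroup p B) (hBa : ∀ a ∈ B, ∀ b ∈ B, a * b = b * a)
    (hEB : E ≤ B) (hE : Cfsg.IsElementaryAbelian p E)
    (hE3 : p ^ 3 ≤ Nat.card E)
    (hcl : ∀ a ∈ B, a ≠ 1 → ∀ K : Subgroup X, K ≤ Subgroup.centralizer ({a} : Set X) →
      B ≤ Subgroup.normalizer (K : Set X) → (Nat.card K).Coprime p → K ≤ th p a)
    {q : ℕ} [Fact q.Prime] (hqp : q ≠ p) {Q₁ Q₂ : Subgroup X}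
    (h₁ : MaxInv q B Q₁) (h₂ : MaxInv q B Q₂) : ∃ c, (∀ b ∈ B, b * c = c * b) ∧ SigF.cj c Q₁ = Q₂ := by
  have hp : p.Prime := Fact.out
  obtain ⟨n, hn⟩ : ∃ n, n = Nat.card X - Nat.card ↥(Q₁ ⊓ Q₂ : Subgroup X) := ⟨_, rfl⟩
  induction n using Nat.strong_induction_on generalizing Q₁ Q₂ with
  | _ n ih =>
  by_cases hD₁ : Q₁ ⊓ Q₂ = Q₁
  · refine ⟨1, by simp, ?_⟩
    rw [SigF.cj_one]
    exact (h₁.2.2 Q₂ h₂.1 h₂.2.1 (inf_eq_left.1 hD₁)).symm
  by_cases hD₂ : Q₁ ⊓ Q₂ = Q₂
  · refine ⟨1, by simp, ?_⟩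
    rw [SigF.cj_one]
    exact h₂.2.2 Q₁ h₁.1 h₁.2.1 (inf_eq_right.1 hD₂)
  obtain ⟨a, haE, ha1, hN₁, hN₂⟩ := SigF.exists_fixed_normalizer_inf hE hE3 hqp h₁.1 h₂.1
    (hEB.trans h₁.2.1) (hEB.trans h₂.2.1) hD₁ hD₂
  have ha := hEB haE
  set D := Q₁ ⊓ Q₂ with hD
  have hBD : B ≤ Subgroup.normalizer (D : Set X) := SigF.le_normalizer_inf h₁.2.1 h₂.2.1
  have hBC : B ≤ Subgroup.centralizer ({a} : Set X) := fun c hc =>
    Subgroup.mem_centralizer_singleton_iff.2 (hBa c hc a ha)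
  have hBCn : B ≤ Subgroup.normalizer ((Subgroup.centralizer ({a} : Set X) : Subgroup X) : Set X) :=
    hBC.trans Subgroup.le_normalizer
  set H := th p a ⊓ Subgroup.normalizer (D : Set X) with hH
  have hHp : ¬ p ∣ Nat.card H := fun h => hp.one_lt.ne' (Nat.eq_one_of_dvd_coprimes (th_card a)
    (h.trans (Subgroup.card_dvd_of_le inf_le_left)) dvd_rfl)
  have hBH : B ≤ Subgroup.normalizer (H : Set X) :=
    SigF.le_normalizer_inf (hBC.trans (centralizer_le_normalizer_th a)) (SigF.le_normalizer_normalizer hBD)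
  have key : ∀ Q : Subgroup X, MaxInv q B Q →
      ∃ S, SigF.IsSyl q S H ∧ B ≤ Subgroup.normalizer (S : Set X) ∧
        Subgroup.normalizer (D : Set X) ⊓ Q ⊓ Subgroup.centralizer {a} ≤ S := by
    intro Q hQ
    have hB1 : B ≤ Subgroup.normalizer ((Subgroup.normalizer (D : Set X) ⊓ Q ⊓ Subgroup.centralizer {a} : Subgroup X) : Set X) :=
      SigF.le_normalizer_inf (SigF.le_normalizer_inf (SigF.le_normalizer_normalizer hBD) hQ.2.1) hBCn
    have hqg : IsPGroup q (Subgroup.normalizer (D : Set X) ⊓ Q ⊓ Subgroup.centralizer {a} : Subgroup X) :=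
      (hQ.1.to_le inf_le_right).to_le inf_le_left
    refine SigF.exists_inv_isSyl_ge hBp hHp hBH hqg ?_ hB1
    refine le_inf ?_ (inf_le_left.trans inf_le_left)
    apply hcl a ha ha1 _ inf_le_right hB1
    obtain ⟨m, hm⟩ := IsPGroup.iff_card.1 hqg
    rw [hm]
    exact Nat.Coprime.pow_left m ((Nat.coprime_primes Fact.out hp).2 hqp)
  obtain ⟨S₁, hS₁, hAS₁, hPS₁⟩ := key Q₁ h₁
  obtain ⟨S₂, hS₂, hAS₂, hPS₂⟩ := key Q₂ h₂
  obtain ⟨c, hcH, hcA, hcS⟩ := SigF.exists_cj_inv_isSyl hBp hHp hBH hS₁ hS₂ hAS₁ hAS₂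
  have hcD : SigF.cj c D = D := SigF.mem_normalizer_iff_cj.1 hcH.2
  have hEq : IsPGroup q ↥(D ⊔ S₂) := by
    rw [sup_comm]
    exact hS₂.isPGroup.to_sup_of_normal_right' (h₁.1.to_le inf_le_left) (hS₂.le.trans inf_le_right)
  have hEn : B ≤ Subgroup.normalizer ((D ⊔ S₂ : Subgroup X) : Set X) := SigF.le_normalizer_sup hBD hAS₂
  obtain ⟨R, hR, hER⟩ := exists_maxInv_ge hEq hEn
  have hcard : ∀ Q Q' : Subgroup X, D ≤ Q → D ≤ Q' → (∃ x ∈ Q ⊓ Q', x ∉ D) →
      Nat.card X - Nat.card ↥(Q ⊓ Q' : Subgroup X) < n := by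
    rintro Q Q' h h' ⟨x, hx, hxD⟩
    have h1 : D < Q ⊓ Q' := lt_of_le_of_ne (le_inf h h') (fun he => hxD (he ▸ hx))
    have h2 : Nat.card D < Nat.card ↥(Q ⊓ Q' : Subgroup X) := by
      by_contra hcon
      exact h1.ne (Subgroup.eq_of_le_of_card_ge h1.le (not_lt.1 hcon))
    have h3 : Nat.card ↥(Q ⊓ Q' : Subgroup X) ≤ Nat.card X := Subgroup.card_le_card_group _
    omega
  obtain ⟨x₁, hx₁, hx₁D⟩ := SetLike.not_le_iff_exists.1 hN₁
  obtain ⟨x₂, hx₂, hx₂D⟩ := SetLike.not_le_iff_exists.1 hN₂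
  obtain ⟨c₂, hc₂, hcc₂⟩ := ih _ (hcard R Q₂ (le_sup_left.trans hER) inf_le_right
    ⟨x₂, ⟨hER (Subgroup.mem_sup_right (hPS₂ hx₂)), hx₂.1.2⟩, hx₂D⟩) hR h₂ rfl
  obtain ⟨c₃, hc₃, hcc₃⟩ := ih _ (hcard (SigF.cj c Q₁) R (by rw [← hcD]; exact SigF.cj_mono inf_le_left) (le_sup_left.trans hER)
    ⟨c * x₁ * c⁻¹, ⟨SigF.conj_mem_cj hx₁.1.2, hER (Subgroup.mem_sup_right (by
      rw [← hcS]; exact SigF.conj_mem_cj (hPS₁ hx₁)))⟩, by
      intro h
      rw [← hcD, SigF.mem_cj] at h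
      apply hx₁D
      have : c⁻¹ * (c * x₁ * c⁻¹) * c = x₁ := by group
      rwa [this] at h⟩) (h₁.cj hcA) hR rfl
  refine ⟨c₂ * (c₃ * c), ?_, ?_⟩
  · intro b hb
    calc b * (c₂ * (c₃ * c)) = (b * c₂) * (c₃ * c) := by group
      _ = (c₂ * b) * (c₃ * c) := by rw [hc₂ b hb]
      _ = c₂ * (b * c₃) * c := by group
      _ = c₂ * (c₃ * b) * c := by rw [hc₃ b hb]
      _ = c₂ * c₃ * (b * c) := by group
      _ = c₂ * c₃ * (c * b) := by rw [hcA b hb]
      _ = c₂ * (c₃ * c) * b := by group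
  · rw [SigF.cj_mul, SigF.cj_mul, hcc₃, hcc₂]

end Trans

end Cfsg.Agent.H9
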